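import Mathlib
import Cfsg.Agent.Lib.H57.AltFus5

/-!
Commutativity of the Sylow subgroups of alternating groups.
-/

set_option autoImplicit false
open Cfsg Equiv Equiv.Perm H57.Wreath H57.AltFus2

namespace H57.AltSylow

/-- Sylow subgroups of isomorphic groups are isomorphic. -/
theorem nonempty_equiv {G G' : Type*} [Group G] [Group G'] [Finite G'] {p : ℕ} [Fact p.Prime]
    (e : G ≃* G') (S : Sylow p G) (S' : Sylow p G') :
    Nonempty ((S : Subgroup G) ≃* (S' : Subgroup G')) := by
  have : Finite G := Finite.of_equiv G' e.symm.toEquiv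
  let T : Sylow p G' := S.mapSurjective (f := e.toMonoidHom) e.surjective
  have h1 : (T : Subgroup G') = (S : Subgroup G).map e.toMonoidHom := rfl
  have e1 : (S : Subgroup G) ≃* (T : Subgroup G') :=
    (S : Subgroup G).equivMapOfInjective e.toMonoidHom e.injective
  exact ⟨e1.trans (T.equiv S')⟩

theorem comm_iff {G G' : Type*} [Group G] [Group G'] (e : G ≃* G') :
    (∀ a b : G, a * b = b * a) ↔ ∀ a b : G', a * b = b * a := by
  constructor
  · intro h a b
    apply e.symm.injective
    rw [map_mul, map_mul, h]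
  · intro h a b
    apply e.injective
    rw [map_mul, map_mul, h]

theorem comm_E0 {p : ℕ} [Fact p.Prime] {U V : Type*} [Fintype U] [DecidableEq U] [Fintype V]
    [DecidableEq V] (x y : alternatingGroup ((ZMod p × U) ⊕ V)) (hx : x ∈ E0 p U V)
    (hy : y ∈ E0 p U V) : x * y = y * x := by
  obtain ⟨f, hf⟩ := mem_E0.1 hx
  obtain ⟨g, hg⟩ := mem_E0.1 hy
  apply Subtype.ext
  show (x : Perm ((ZMod p × U) ⊕ V)) * y = y * x
  rw [hf, hg, wr_mul, wr_mul]
  apply affP_congr rfl _ rfl
  funext i
  simp [add_comm]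

theorem result {α : Type*} [Fintype α] [DecidableEq α] (p : ℕ) [hp : Fact p.Prime]
    (hn : 6 ≤ Fintype.card α) (S : Sylow p (alternatingGroup α)) :
    IsMulCommutative S ↔ Fintype.card α < p ^ 2 := by
  classical
  set n := Fintype.card α with hnα
  set m := n / p with hm
  have hnm : p * m + n % p = n := Nat.div_add_mod n p
  have hVp : Nat.card (Fin (n % p)) < p := by
    rw [Nat.card_fin]; exact Nat.mod_lt n hp.1.pos
  have hcomm : IsMulCommutative S ↔ ∀ a b : S, a * b = b * a :=
    ⟨fun h => h.is_comm.comm, fun h => ⟨⟨h⟩⟩⟩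
  rw [hcomm]
  -- the model
  obtain ⟨P, hP, hg⟩ := exists_syl p m (Fin m) (by simp)
  have e : ((ZMod p × Fin m) ⊕ Fin (n % p)) ≃ α := Fintype.equivOfCardEq (by
    rw [Fintype.card_sum, Fintype.card_prod, ZMod.card, Fintype.card_fin, Fintype.card_fin, hnm])
  obtain ⟨S', hS'⟩ := exists_sylow (V := Fin (n % p)) hVp hP
  obtain ⟨e'⟩ := nonempty_equiv (Equiv.altCongrHom e) S' S
  refine (comm_iff e').symm.trans ?_
  constructor
  · intro h
    by_contra hcon
    push Not at hcon
    have hmp : p ≤ m := by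
      rw [hm, Nat.le_div_iff_mul_le hp.1.pos, ← pow_two]; exact hcon
    have hm3 : 3 ≤ Fintype.card (Fin m) := by
      rw [Fintype.card_fin]
      by_cases hp2 : p = 2
      · rw [hm, hp2]; omega
      · have := hp.1.two_le; omega
    -- an element of order `p` of `P`
    have h1 : p ∣ Nat.card P := by
      rw [hP]
      apply dvd_pow_self
      rw [← pos_iff_ne_zero]
      apply one_le_padicValNat_of_dvd (Nat.factorial_ne_zero _)
      rw [hp.1.dvd_factorial]
      simpa using hmp
    obtain ⟨⟨π, hπ⟩, hπo⟩ := exists_prime_orderOf_dvd_card' (G := P) p h1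
    have hπp : π ^ p = 1 := by
      have := pow_orderOf_eq_one (⟨π, hπ⟩ : P)
      rw [hπo] at this
      simpa using congrArg Subtype.val this
    have hπ1 : π ≠ 1 := by
      rintro rfl
      have h2 : (⟨1, hπ⟩ : P) = 1 := rfl
      rw [h2, orderOf_one] at hπo
      exact hp.1.one_lt.ne hπo
    obtain ⟨i, hi⟩ : ∃ i, π i ≠ i := by
      by_contra hcon
      push Not at hcon
      exact hπ1 (Perm.ext hcon)
    obtain ⟨j, hj, hj'⟩ : ∃ j, j ≠ i ∧ j ≠ π i := by
      obtain ⟨j, k, hj, hk, hjk⟩ := exists_ne_ne hm3 i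
      by_cases h2 : j = π i
      · exact ⟨k, hk, fun h3 => hjk (h2.trans h3.symm)⟩
      · exact ⟨j, hj, h2⟩
    have m1 : (⟨rowHom (p := p) (V := Fin (n % p)) π, rowHom_mem_of_pow hπp⟩ :
        alternatingGroup ((ZMod p × Fin m) ⊕ Fin (n % p))) ∈ (S' : Subgroup _) := by
      rw [hS']; exact ⟨0, π, hπ, rfl⟩
    have m2 : (⟨eij (p := p) (Fin (n % p)) i j, eij_mem i j⟩ :
        alternatingGroup ((ZMod p × Fin m) ⊕ Fin (n % p))) ∈ (S' : Subgroup _) := by
      rw [hS']; exact E0_le_S0 P (eij_mem_E0 i j)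
    have h2' := congrArg Subtype.val (congrArg Subtype.val (h ⟨_, m1⟩ ⟨_, m2⟩))
    have h2 := congrArg (fun f : Perm ((ZMod p × Fin m) ⊕ Fin (n % p)) => f (Sum.inl (0, i))) h2'
    change rowHom (p := p) (V := Fin (n % p)) π (eij _ i j (Sum.inl (0, i))) =
      eij _ i j (rowHom (p := p) (V := Fin (n % p)) π (Sum.inl (0, i))) at h2
    rw [eij_apply_i hj.symm] at h2
    have h3 : rowHom (p := p) (V := Fin (n % p)) π (Sum.inl (0, i)) = Sum.inl (0, π i) := by
      rw [rowHom_apply, affP_inl]; simp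
    have h4 : rowHom (p := p) (V := Fin (n % p)) π (Sum.inl (0 + 1, i)) = Sum.inl (1, π i) := by
      rw [rowHom_apply, affP_inl]; simp
    rw [h3, h4, eij_apply_other hi hj'.symm] at h2
    simp at h2
  · intro h
    have hmp : m < p := by
      rw [hm, Nat.div_lt_iff_lt_mul hp.1.pos, ← pow_two]; exact h
    have hPbot : P = ⊥ := by
      rw [← Subgroup.card_eq_one, hP]
      have : padicValNat p (Nat.card (Fin m)).factorial = 0 := by
        rw [padicValNat.eq_zero_iff]
        right; right
        rw [hp.1.dvd_factorial]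
        simpa using hmp
      rw [this, pow_zero]
    subst hPbot
    rintro ⟨a, ha⟩ ⟨b, hb⟩
    apply Subtype.ext
    change a ∈ (S' : Subgroup _) at ha
    change b ∈ (S' : Subgroup _) at hb
    rw [hS'] at ha hb
    exact comm_E0 a b ha hb

end H57.AltSylow
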