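import Mathlib
import Cfsg.Agent.Lib.H57.FusSL

/-!
The `p`-fusion system of `PSL_n(K)`, `n ≥ 3`, in the defining characteristic is simple: final steps.
-/

set_option autoImplicit false

namespace H57.FusSL2

open Matrix H50.Tv H50.PSLBasic H50.PSLSylow H57.FusSimple H57.FusSL

variable {n : ℕ} {K : Type*} [Field K]

/-! ### Generation -/

/-- generated by the transvections fixing the first `k` basis vectors -/
def Gm (k : ℕ) : Subgroup (Matrix.SpecialLinearGroup (Fin n) K) :=
  Subgroup.closure {g | ∃ (x f : Fin n → K) (h : f ⬝ᵥ x = 0), (∀ j : Fin n, j.1 < k → f j = 0) ∧ g = T x f h}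

lemma T_mem_Gm {k : ℕ} {x f : Fin n → K} (h : f ⬝ᵥ x = 0) (hf : ∀ j : Fin n, j.1 < k → f j = 0) :
    T x f h ∈ Gm k := Subgroup.subset_closure ⟨x, f, h, hf, rfl⟩

lemma Gm_anti {k l : ℕ} (hkl : k ≤ l) : (Gm l : Subgroup (Matrix.SpecialLinearGroup (Fin n) K)) ≤ Gm k := by
  unfold Gm
  apply Subgroup.closure_mono
  rintro g ⟨x, f, h, hf, rfl⟩
  exact ⟨x, f, h, fun j hj => hf j (by omega), rfl⟩

lemma Gm_fix {k : ℕ} {g : Matrix.SpecialLinearGroup (Fin n) K} (hg : g ∈ Gm k) {j : Fin n} (hj : j.1 < k) :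
    (g : Matrix (Fin n) (Fin n) K) *ᵥ e j = e j := by
  unfold Gm at hg
  induction hg using Subgroup.closure_induction with
  | mem g hg =>
    obtain ⟨x, f, h, hf, rfl⟩ := hg
    rw [T_coe, tv_mulVec, dot_e, hf j hj, zero_smul, add_zero]
  | one => rw [one_act]
  | mul a b _ _ iha ihb => rw [mul_act, ihb, iha]
  | inv a _ iha =>
    have := inv_act a (e j)
    rwa [iha] at this

/-- one-step moves -/
lemma move_one {k : Fin n} {v : Fin n → K} (hv : v k = 1 ∨ ∃ i : Fin n, k < i ∧ v i ≠ 0) :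
    ∃ g ∈ (Gm k.1 : Subgroup (Matrix.SpecialLinearGroup (Fin n) K)),
      (g : Matrix (Fin n) (Fin n) K) *ᵥ v = e k := by
  -- a covector with value one on both
  obtain ⟨f, hf, hfv, hfe⟩ : ∃ f : Fin n → K, (∀ j : Fin n, j.1 < k.1 → f j = 0) ∧ f ⬝ᵥ v = 1 ∧ f k = 1 := by
    rcases hv with hv | ⟨i, hki, hvi⟩
    · refine ⟨e k, ?_, by rw [e_dot, hv], by rw [e_apply, if_pos rfl]⟩
      intro j hj
      rw [e_apply, if_neg]
      rintro rfl; omega
    · refine ⟨e k + ((1 - v k) / v i) • e i, ?_, ?_, ?_⟩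
      · intro j hj
        rw [Fin.lt_def] at hki
        rw [Pi.add_apply, Pi.smul_apply, e_apply, e_apply, if_neg (by rintro rfl; omega),
          if_neg (by rintro rfl; omega)]
        simp
      · rw [add_dotProduct, smul_dotProduct, e_dot, e_dot, smul_eq_mul, div_mul_cancel₀ _ hvi]; ring
      · rw [Pi.add_apply, Pi.smul_apply, e_apply, e_apply, if_pos rfl, if_neg hki.ne]; simp
  have h0 : f ⬝ᵥ (e k - v) = 0 := by rw [dotProduct_sub, dot_e, hfv, hfe, sub_self]
  refine ⟨T (e k - v) f h0, T_mem_Gm h0 hf, ?_⟩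
  rw [T_coe, tv_mulVec, hfv, one_smul]; abel

lemma det_last {g : Matrix.SpecialLinearGroup (Fin n) K} {k : Fin n} (hk : k.1 + 1 = n)
    (hfix : ∀ j : Fin n, j.1 < k.1 → (g : Matrix (Fin n) (Fin n) K) *ᵥ e j = e j) :
    ((g : Matrix (Fin n) (Fin n) K) *ᵥ e k) k = 1 := by
  have hcol : ∀ i j, (g : Matrix (Fin n) (Fin n) K) i j = ((g : Matrix (Fin n) (Fin n) K) *ᵥ e j) i := by
    intro i j; simp [e]
  have hlt : ∀ j : Fin n, j ≠ k → j.1 < k.1 := by
    intro j hj
    have h1 : j.1 ≠ k.1 := fun h => hj (Fin.ext h)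
    omega
  have h1 : (g : Matrix (Fin n) (Fin n) K).BlockTriangular id := by
    intro i j hij
    change j < i at hij
    have hjk : j ≠ k := by
      rintro rfl
      rw [Fin.lt_def] at hij
      omega
    rw [hcol, hfix j (hlt j hjk), e_apply, if_neg hij.ne']
  have h2 := Matrix.det_of_upperTriangular h1
  rw [Matrix.SpecialLinearGroup.det_coe, Finset.prod_eq_single k] at h2
  · rw [← hcol, ← h2]
  · intro j _ hj
    rw [hcol, hfix j (hlt j hj), e_apply, if_pos rfl]
  · simp

/-- elements fixing the first `k` basis vectors are products of transvections fixing them -/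
theorem mem_Gm : ∀ r k : ℕ, k + r = n → ∀ g : Matrix.SpecialLinearGroup (Fin n) K,
    (∀ j : Fin n, j.1 < k → (g : Matrix (Fin n) (Fin n) K) *ᵥ e j = e j) → g ∈ Gm k := by
  intro r
  induction r with
  | zero =>
    intro k hk g hg
    have : g = 1 := by
      apply ext_act
      intro j
      rw [one_act, hg j (by omega)]
    rw [this]; exact Subgroup.one_mem _
  | succ r ih =>
    intro k hk g hg
    have hkn : k < n := by omega
    set k' : Fin n := ⟨k, hkn⟩ with hk'
    set v := (g : Matrix (Fin n) (Fin n) K) *ᵥ e k' with hv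
    -- move `v` to `e k'`
    obtain ⟨s, hs, hsv⟩ : ∃ s ∈ (Gm k : Subgroup (Matrix.SpecialLinearGroup (Fin n) K)),
        (s : Matrix (Fin n) (Fin n) K) *ᵥ v = e k' := by
      by_cases h1 : ∃ i : Fin n, k' < i ∧ v i ≠ 0
      · exact move_one (k := k') (Or.inr h1)
      · by_cases h2 : v k' = 1
        · exact move_one (k := k') (Or.inl h2)
        · push Not at h1
          -- there is a further index
          have h3 : k + 1 < n := by
            by_contra hcon
            exact h2 (det_last (k := k') (show k + 1 = n by omega) hg)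
          set i' : Fin n := ⟨k + 1, h3⟩ with hi'
          -- `v k' ≠ 0`
          have h4 : v k' ≠ 0 := by
            intro h0
            -- then `g (e k' - Σ v_j e_j) = 0`
            have h5 : (g : Matrix (Fin n) (Fin n) K) *ᵥ v = v := by
              have h6 : v ∈ EE n K k := by
                intro i hi
                by_cases hik : i = k'
                · rw [hik]; exact h0
                · apply h1
                  rw [Fin.lt_def]
                  have : i.1 ≠ k := fun h => hik (Fin.ext h)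
                  show k < i.1
                  omega
              have h7 := lin_EE (mulVecLin (g : Matrix (Fin n) (Fin n) K) - LinearMap.id) ⊥ (k := k)
                (fun j hj => by
                  show (g : Matrix (Fin n) (Fin n) K) *ᵥ e j - e j ∈ _
                  rw [hg j hj, sub_self]; exact Submodule.zero_mem _) h6
              exact sub_eq_zero.1 ((Submodule.mem_bot K).1 h7)
            have h6 : v = e k' := by
              have h7 := congrArg (fun y => ((g⁻¹ : Matrix.SpecialLinearGroup (Fin n) K) :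
                Matrix (Fin n) (Fin n) K) *ᵥ y) h5
              simp only [inv_act] at h7
              rw [h7, hv, inv_act]
            rw [h6, e_apply, if_pos rfl] at h0
            exact one_ne_zero h0
          have h5 : ((v k')⁻¹ • (e k' : Fin n → K)) ⬝ᵥ e i' = 0 := by
            rw [dot_e, Pi.smul_apply, e_apply, if_neg, smul_zero]
            intro h
            have := congrArg Fin.val h
            simp [hi', hk'] at this
          have h6 : ∀ j : Fin n, j.1 < k → ((v k')⁻¹ • (e k' : Fin n → K)) j = 0 := by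
            intro j hj
            rw [Pi.smul_apply, e_apply, if_neg, smul_zero]
            intro h
            rw [h] at hj
            simp [hk'] at hj
          have h7 : (T (e i') ((v k')⁻¹ • e k') h5 : Matrix (Fin n) (Fin n) K) *ᵥ v = v + e i' := by
            rw [T_coe, tv_mulVec, smul_dotProduct, e_dot, smul_eq_mul, inv_mul_cancel₀ h4, one_smul]
          have hlt : k' < i' := by rw [Fin.lt_def]; show k < k + 1; omega
          obtain ⟨s, hs, hs'⟩ := move_one (k := k') (v := v + e i') (Or.inr ⟨i', hlt, by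
            rw [Pi.add_apply, h1 i' hlt, e_apply, if_pos rfl, zero_add]; exact one_ne_zero⟩)
          refine ⟨s * T (e i') ((v k')⁻¹ • e k') h5, Subgroup.mul_mem _ hs (T_mem_Gm h5 h6), ?_⟩
          rw [mul_act, h7, hs']
    have h8 : s * g ∈ (Gm (k + 1) : Subgroup (Matrix.SpecialLinearGroup (Fin n) K)) := by
      apply ih (k + 1) (by omega)
      intro j hj
      by_cases hjk : j.1 = k
      · have : j = k' := Fin.ext hjk
        rw [this, mul_act]; exact hsv
      · rw [mul_act, hg j (by omega), Gm_fix hs (by omega)]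
    have h9 := Gm_anti (Nat.le_succ k) h8
    have h10 : g = s⁻¹ * (s * g) := by group
    rw [h10]
    exact Subgroup.mul_mem _ (Subgroup.inv_mem _ hs) h9

variable [Finite K] (p : ℕ) [Fact p.Prime] [CharP K p]

section HB

/-- index zero etc. -/
theorem hB (hn : 3 ≤ n) : HB p (S0 n K) := by
  haveI : NeZero n := ⟨by omega⟩
  haveI : Nontrivial (Fin n) := Fin.nontrivial_iff_two_le.2 (by omega)
  intro g hg
  set i0 : Fin n := ⟨0, by omega⟩ with hi0
  set i1 : Fin n := ⟨1, by omega⟩ with hi1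
  set l : Fin n := ⟨n - 1, by omega⟩ with hl
  have h01 : i0 ≠ i1 := by intro h; have := congrArg Fin.val h; simp [hi0, hi1] at this
  have h0l : i0 ≠ l := by intro h; have := congrArg Fin.val h; simp [hi0, hl] at this; omega
  have h1l : i1 ≠ l := by intro h; have := congrArg Fin.val h; simp [hi1, hl] at this; omega
  have hst := normalizer_stab hg
  set Kc := Subgroup.closure {x : Matrix.SpecialLinearGroup (Fin n) K |
    x ∈ Subgroup.normalizer (S0 n K : Set (Matrix.SpecialLinearGroup (Fin n) K)) ∧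
    ∃ R ≤ S0 n K, PCentric p R ∧ x ∈ opN p R ⊔ Subgroup.centralizer (R : Set _)} with hK
  -- the two radicals
  have hEL : EL (e i0 : Fin n → K) ≤ S0 n K := by
    rintro s ⟨f, hf, hs⟩
    have : s = T (e i0) f hf := Subtype.ext hs
    rw [this]
    apply mem_S0.2
    apply PS_T hf (k := 1) (e_mem_EE (by simp [hi0]))
    intro j hj
    have : j = i0 := Fin.ext (by show j.1 = 0; omega)
    rw [this]; rw [dot_e] at hf; exact hf
  have hER : ER (e l : Fin n → K) ≤ S0 n K := by
    rintro s ⟨x, hx, hs⟩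
    have : s = T x (e l) hx := Subtype.ext hs
    rw [this]
    apply mem_S0.2
    apply PS_T hx (k := n - 1)
    · intro i hi
      have : i = l := Fin.ext (by show i.1 = n - 1; omega)
      rw [this]; rw [e_dot] at hx; exact hx
    · intro j hj
      rw [e_apply, if_neg]
      rintro rfl
      simp [hl] at hj
  -- the eigenvalue
  obtain ⟨a, ha⟩ : ∃ a : K, (g : Matrix (Fin n) (Fin n) K) *ᵥ e i0 = a • e i0 := by
    have h1 := hst 1 (by omega) _ (e_mem_EE (j := i0) (by simp [hi0]))
    refine ⟨((g : Matrix (Fin n) (Fin n) K) *ᵥ e i0) i0, ?_⟩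
    ext i
    rw [Pi.smul_apply, e_apply]
    by_cases hi : i = i0
    · rw [if_pos hi, hi]; simp
    · rw [if_neg hi, smul_zero]
      apply h1
      have : i.1 ≠ 0 := fun h => hi (Fin.ext h)
      omega
  have ha0 : a ≠ 0 := by
    rintro rfl
    rw [zero_smul] at ha
    have := inv_act g (e i0)
    rw [ha, Matrix.mulVec_zero] at this
    exact e_ne i0 this.symm
  -- elementary elements in `opN (ER (e l))`
  have hop : ∀ (x f : Fin n → K) (h : f ⬝ᵥ x = 0), x l = 0 → T x f h ∈ opN p (ER (e l : Fin n → K)) := by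
    intro x f h hx
    apply mem_opN (k := 1) _ _ Fact.out
    · apply Subgroup.mem_normalizer_fintype
      intro t ht
      apply normalizes_ER _ ht
      rw [T_coe, vecMul_tv, e_dot, hx, zero_smul, add_zero]
    · rw [pow_one]; exact T_pow_char x f h
  have hn' : ∀ c : K, c ≠ 0 → ∃ N ∈ opN p (ER (e l : Fin n → K)),
      (N : Matrix (Fin n) (Fin n) K) *ᵥ e i0 = (-c⁻¹) • e i1 ∧
      (N : Matrix (Fin n) (Fin n) K) *ᵥ e i1 = c • e i0 ∧
      ∀ j, j ≠ i0 → j ≠ i1 → (N : Matrix (Fin n) (Fin n) K) *ᵥ e j = e j := by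
    intro c hc
    have d1 : (e i1 : Fin n → K) ⬝ᵥ (c • e i0) = 0 := e_dot_e h01 c
    have d2 : (e i0 : Fin n → K) ⬝ᵥ ((-c⁻¹) • e i1) = 0 := e_dot_e h01.symm _
    have q1 : (e i1 : Fin n → K) ⬝ᵥ e i0 = 0 := by rw [e_dot, e_apply, if_neg h01.symm]
    have q2 : (e i0 : Fin n → K) ⬝ᵥ e i1 = 0 := by rw [e_dot, e_apply, if_neg h01]
    have q3 : (e i1 : Fin n → K) ⬝ᵥ e i1 = 1 := by rw [e_dot, e_apply, if_pos rfl]
    have q4 : (e i0 : Fin n → K) ⬝ᵥ e i0 = 1 := by rw [e_dot, e_apply, if_pos rfl]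
    refine ⟨T (c • e i0) (e i1) d1 * (T ((-c⁻¹) • e i1) (e i0) d2 * T (c • e i0) (e i1) d1),
      Subgroup.mul_mem _ (hop _ _ _ ?_) (Subgroup.mul_mem _ (hop _ _ _ ?_) (hop _ _ _ ?_)), ?_, ?_, ?_⟩
    · rw [Pi.smul_apply, e_apply, if_neg h0l.symm, smul_zero]
    · rw [Pi.smul_apply, e_apply, if_neg h1l.symm, smul_zero]
    · rw [Pi.smul_apply, e_apply, if_neg h0l.symm, smul_zero]
    · rw [mul_act, mul_act, T_coe, T_coe, tv_mulVec, tv_mulVec, tv_mulVec]
      simp only [dotProduct_add, dotProduct_smul, q1, q2, q3, q4, smul_eq_mul]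
      match_scalars
      · field_simp; ring
      · field_simp
        try ring
    · rw [mul_act, mul_act, T_coe, T_coe, tv_mulVec, tv_mulVec, tv_mulVec]
      simp only [dotProduct_add, dotProduct_smul, q1, q2, q3, q4, smul_eq_mul]
      match_scalars
      · field_simp; ring
      · field_simp
        try ring
    · intro j hj0 hj1
      have q5 : (e i0 : Fin n → K) ⬝ᵥ e j = 0 := by rw [e_dot, e_apply, if_neg (Ne.symm hj0)]
      have q6 : (e i1 : Fin n → K) ⬝ᵥ e j = 0 := by rw [e_dot, e_apply, if_neg (Ne.symm hj1)]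
      have w1 : tv (c • e i0) (e i1 : Fin n → K) *ᵥ e j = e j := by
        rw [tv_mulVec, q6, zero_smul, add_zero]
      have w2 : tv ((-c⁻¹) • e i1) (e i0 : Fin n → K) *ᵥ e j = e j := by
        rw [tv_mulVec, q5, zero_smul, add_zero]
      rw [mul_act, mul_act, T_coe, T_coe, w1, w2, w1]
  obtain ⟨N1, hN1, a1, a2, a3⟩ := hn' a ha0
  obtain ⟨N2, hN2, b1, b2, b3⟩ := hn' (-1) (neg_ne_zero.2 one_ne_zero)
  set D := N1 * N2 with hD
  have hDop : D ∈ opN p (ER (e l : Fin n → K)) := Subgroup.mul_mem _ hN1 hN2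
  have hD0 : (D : Matrix (Fin n) (Fin n) K) *ᵥ e i0 = a • e i0 := by
    rw [hD, mul_act, b1, Matrix.mulVec_smul, a2, smul_smul]
    congr 1
    norm_num
  have hD1 : (D : Matrix (Fin n) (Fin n) K) *ᵥ e i1 = a⁻¹ • e i1 := by
    rw [hD, mul_act, b2, Matrix.mulVec_smul, a1, smul_smul]
    congr 1
    ring
  have hDj : ∀ j, j ≠ i0 → j ≠ i1 → (D : Matrix (Fin n) (Fin n) K) *ᵥ e j = e j := by
    intro j hj0 hj1
    rw [hD, mul_act, b3 j hj0 hj1, a3 j hj0 hj1]
  have hDst : Stb D := by
    intro k hk x hx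
    apply lin_EE (mulVecLin (D : Matrix (Fin n) (Fin n) K)) (EE n K k) (k := k) _ hx
    intro j hj
    show (D : Matrix (Fin n) (Fin n) K) *ᵥ e j ∈ _
    by_cases hj0 : j = i0
    · rw [hj0, hD0]; rw [hj0] at hj; exact Submodule.smul_mem _ _ (e_mem_EE hj)
    by_cases hj1 : j = i1
    · rw [hj1, hD1]; rw [hj1] at hj; exact Submodule.smul_mem _ _ (e_mem_EE hj)
    rw [hDj j hj0 hj1]; exact e_mem_EE hj
  have hDK : D ∈ Kc := Subgroup.subset_closure ⟨hDst.norm, ER (e l), hER, pCentric_ER p (e_ne l),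
    Subgroup.mem_sup_left hDop⟩
  have h1 : ((D⁻¹ * g : Matrix.SpecialLinearGroup (Fin n) K) : Matrix (Fin n) (Fin n) K) *ᵥ e i0 = e i0 := by
    rw [mul_act, ha, ← hD0, inv_act]
  have h2 : D⁻¹ * g ∈ Kc := by
    apply Subgroup.subset_closure
    refine ⟨(hDst.inv.mul hst).norm, EL (e i0), hEL, pCentric_EL p (e_ne i0), Subgroup.mem_sup_left ?_⟩
    have h3 : D⁻¹ * g ∈ (Gm 1 : Subgroup (Matrix.SpecialLinearGroup (Fin n) K)) := by
      apply mem_Gm (n - 1) 1 (by omega)
      intro j hj
      have : j = i0 := Fin.ext (by show j.1 = 0; omega)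
      rw [this]; exact h1
    refine (?_ : (Gm 1 : Subgroup (Matrix.SpecialLinearGroup (Fin n) K)) ≤ _) h3
    unfold Gm
    rw [Subgroup.closure_le]
    rintro _ ⟨x, f, h, hf, rfl⟩
    apply mem_opN (k := 1) _ _ Fact.out
    · apply Subgroup.mem_normalizer_fintype
      intro t ht
      apply normalizes_EL _ ht
      rw [T_coe, tv_mulVec, dot_e, hf i0 (by simp [hi0]), zero_smul, add_zero]
    · rw [pow_one]; exact T_pow_char x f h
  have h3 : g = D * (D⁻¹ * g) := by group
  rw [h3]
  exact Subgroup.mul_mem _ hDK h2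

end HB

section HA

/-- all transvections are conjugate in `SL_n`, `n ≥ 3` -/
lemma exists_conj (hn : 3 ≤ n) {i j i' j' : Fin n} (hij : i ≠ j) (hij' : i' ≠ j') {a a' : K} (ha : a ≠ 0)
    (ha' : a' ≠ 0) : ∃ s : Matrix.SpecialLinearGroup (Fin n) K,
      s * T (a • e i) (e j) (e_dot_e hij a) * s⁻¹ = T (a' • e i') (e j') (e_dot_e hij' a') := by
  obtain ⟨g, hg1, hg2⟩ := exists_GL_pair (x := a' • e i') (f := e j') (x₀ := a • e i) (f₀ := e j)
    (smul_ne_zero ha' (e_ne i')) (e_ne j') (smul_ne_zero ha (e_ne i)) (e_ne j) (e_dot_e hij' a') (e_dot_e hij a)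
  -- a third index
  obtain ⟨k, hk⟩ : ∃ k : Fin n, k ∉ ({i', j'} : Finset (Fin n)) := by
    by_contra hcon
    push Not at hcon
    have h1 : (Finset.univ : Finset (Fin n)) ⊆ {i', j'} := fun x _ => hcon x
    have h2 := Finset.card_le_card h1
    have h3 : ({i', j'} : Finset (Fin n)).card ≤ 2 := Finset.card_le_two
    rw [Finset.card_univ, Fintype.card_fin] at h2
    omega
  simp only [Finset.mem_insert, Finset.mem_singleton, not_or] at hk
  set δ : K := (g : Matrix (Fin n) (Fin n) K).det with hδ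
  have hδ0 : δ ≠ 0 := by
    have := (Matrix.isUnit_iff_isUnit_det (g : Matrix (Fin n) (Fin n) K)).1 g.isUnit
    exact this.ne_zero
  set d : Fin n → K := fun x => if x = k then δ⁻¹ else 1 with hd
  have hdet : (Matrix.diagonal d).det = δ⁻¹ := by
    rw [Matrix.det_diagonal, Finset.prod_eq_single k]
    · simp [hd]
    · intro x _ hx; simp [hd, hx]
    · simp
  set s : Matrix.SpecialLinearGroup (Fin n) K :=
    ⟨Matrix.diagonal d * (g : Matrix (Fin n) (Fin n) K), by
      rw [Matrix.det_mul, hdet, ← hδ, inv_mul_cancel₀ hδ0]⟩ with hs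
  have hsc : (s : Matrix (Fin n) (Fin n) K) = Matrix.diagonal d * (g : Matrix (Fin n) (Fin n) K) := rfl
  have h1 : (s : Matrix (Fin n) (Fin n) K) *ᵥ (a • e i) = a' • e i' := by
    rw [hsc, ← Matrix.mulVec_mulVec, hg1]
    ext x
    rw [Matrix.mulVec_diagonal, Pi.smul_apply, e_apply]
    by_cases hx : x = i'
    · subst hx
      simp [hd, Ne.symm hk.1]
    · simp [hx]
  have h2 : (e j' : Fin n → K) ᵥ* (s : Matrix (Fin n) (Fin n) K) = e j := by
    have h3 : (e j' : Fin n → K) ᵥ* Matrix.diagonal d = e j' := by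
      ext x
      rw [Matrix.vecMul_diagonal, e_apply]
      by_cases hx : x = j'
      · subst hx
        simp [hd, Ne.symm hk.2]
      · simp [hx]
    rw [hsc, ← Matrix.vecMul_vecMul, h3, ← hg2, Matrix.vecMul_vecMul, ← Units.val_mul, inv_mul_cancel,
      Units.val_one, Matrix.vecMul_one]
  have h3 : (e j : Fin n → K) ᵥ* ((s⁻¹ : Matrix.SpecialLinearGroup (Fin n) K) : Matrix (Fin n) (Fin n) K) = e j' := by
    rw [← h2, Matrix.vecMul_vecMul, sl_mul_inv, Matrix.vecMul_one]
  refine ⟨s, ?_⟩
  apply Subtype.ext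
  rw [Matrix.SpecialLinearGroup.coe_mul, Matrix.SpecialLinearGroup.coe_mul, T_coe, conj_T, h1, h3, T_coe]

/-- the form of central elements -/
lemma central_form (hn : 3 ≤ n) {t : Matrix.SpecialLinearGroup (Fin n) K} (htS : t ∈ S0 n K)
    (htC : t ∈ Subgroup.centralizer (S0 n K : Set (Matrix.SpecialLinearGroup (Fin n) K))) :
    ∃ c : K, t = T (c • e ⟨0, by omega⟩) (e ⟨n - 1, by omega⟩) (e_dot_e (by
      intro h; have := congrArg Fin.val h; simp at this; omega) c) := by
  set i0 : Fin n := ⟨0, by omega⟩ with hi0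
  set l : Fin n := ⟨n - 1, by omega⟩ with hl
  have hPt := mem_S0.1 htS
  -- commutation
  have key : ∀ i j : Fin n, i < j → ∀ x : Fin n → K,
      x j • ((t : Matrix (Fin n) (Fin n) K) *ᵥ e i) = ((t : Matrix (Fin n) (Fin n) K) *ᵥ x) j • e i := by
    intro i j hij x
    have h1 := Subgroup.mem_centralizer_iff.1 htC _ (mem_S0.2 (PS_Tij hij 1))
    have h2 := congrArg (fun g : Matrix.SpecialLinearGroup (Fin n) K => (g : Matrix (Fin n) (Fin n) K) *ᵥ x) h1
    simp only [mul_act, T_coe, tv_mulVec, e_dot, Matrix.mulVec_add, Matrix.mulVec_smul, one_smul] at h2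
    exact (add_left_cancel h2).symm
  -- diagonal entries
  have hdiag : ∀ j : Fin n, ((t : Matrix (Fin n) (Fin n) K) *ᵥ e j) j = 1 := by
    intro j
    have h1 := hPt j j le_rfl
    rw [Pi.sub_apply, e_apply, if_pos rfl, sub_eq_zero] at h1
    exact h1
  have hfix : ∀ i : Fin n, i ≠ l → (t : Matrix (Fin n) (Fin n) K) *ᵥ e i = e i := by
    intro i hi
    have hil : i < l := by
      rw [Fin.lt_def]
      have h1 : i.1 ≠ l.1 := fun h => hi (Fin.ext h)
      have h2 := i.2
      simp only [hl] at h1 ⊢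
      omega
    have h1 := key i l hil (e l)
    rw [hdiag, e_apply, if_pos rfl, one_smul, one_smul] at h1
    exact h1
  have hcoord : ∀ j : Fin n, j ≠ i0 → ∀ x : Fin n → K, ((t : Matrix (Fin n) (Fin n) K) *ᵥ x) j = x j := by
    intro j hj x
    have h0j : i0 < j := by
      rw [Fin.lt_def]
      have h1 : j.1 ≠ i0.1 := fun h => hj (Fin.ext h)
      simp only [hi0] at h1 ⊢
      omega
    have h1 := key i0 j h0j x
    have h2 : i0 ≠ l := by intro h; have := congrArg Fin.val h; simp [hi0, hl] at this; omega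
    rw [hfix i0 h2] at h1
    have h3 := congrFun h1 i0
    rw [Pi.smul_apply, Pi.smul_apply, e_apply, if_pos rfl] at h3
    simpa using h3.symm
  refine ⟨((t : Matrix (Fin n) (Fin n) K) *ᵥ e l) i0, ?_⟩
  apply ext_act
  intro j
  rw [T_coe, tv_mulVec, dot_e, e_apply]
  by_cases hj : j = l
  · subst hj
    rw [if_pos rfl, one_smul]
    ext i
    rw [Pi.add_apply, Pi.smul_apply, e_apply, e_apply]
    by_cases hi : i = i0
    · have h2 : i0 ≠ l := by intro h; have := congrArg Fin.val h; simp [hi0, hl] at this; omega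
      subst hi
      rw [if_neg h2, if_pos rfl]; simp
    · rw [hcoord i hi, e_apply, if_neg hi]; simp
  · rw [if_neg hj, zero_smul, add_zero]
    exact hfix j hj

include p in
theorem hA (hn : 3 ≤ n) : HA (S0 n K) := by
  haveI : NeZero n := ⟨by omega⟩
  intro Tg hTS hT1 hT
  have hp := isPGroup_S0 (n := n) (K := K) p
  have hTn : S0 n K ≤ Subgroup.normalizer (Tg : Set (Matrix.SpecialLinearGroup (Fin n) K)) := fun s hs =>
    Subgroup.mem_normalizer_fintype fun t ht => hT t ht s
      (Subgroup.mul_mem _ (Subgroup.mul_mem _ hs (hTS ht)) (Subgroup.inv_mem _ hs))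
  have hz := H65.PBasic.inf_centralizer_ne_bot (S0 n K) Tg hp (hp.to_le hTS) hTn hT1
  obtain ⟨⟨t, htT, htC⟩, ht1'⟩ := Subgroup.ne_bot_iff_exists_ne_one.1 hz
  have ht1 : t ≠ 1 := fun h => ht1' (Subtype.ext h)
  obtain ⟨c, hc⟩ := central_form hn (hTS htT) htC
  have hc0 : c ≠ 0 := by
    rintro rfl
    apply ht1
    rw [hc]
    apply Subtype.ext
    rw [T_coe, zero_smul, tv_zero_left]; rfl
  -- all elementary matrices
  have hij : ∀ (i j : Fin n) (hij : i < j) (a : K), T (a • e i) (e j) (e_dot_e hij.ne a) ∈ Tg := by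
    intro i j hij a
    by_cases ha : a = 0
    · have : T (a • e i) (e j) (e_dot_e hij.ne a) = 1 := by
        apply Subtype.ext
        rw [T_coe, ha, zero_smul, tv_zero_left]; rfl
      rw [this]; exact Tg.one_mem
    · obtain ⟨s, hs⟩ := exists_conj hn (i := (⟨0, by omega⟩ : Fin n)) (j := (⟨n - 1, by omega⟩ : Fin n))
        (by intro h; have := congrArg Fin.val h; simp at this; omega) hij.ne hc0 ha
      rw [← hs, ← hc]
      apply hT t htT s
      rw [hc, hs]
      exact mem_S0.2 (PS_Tij hij a)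
  -- columns
  have hcol : ∀ (k : Fin n) (x : Fin n → K) (hx : x ∈ EE n K k.1), ∃ s ∈ Tg,
      (s : Matrix (Fin n) (Fin n) K) = tv x (e k) := by
    intro k x hx
    have h1 : ∀ I : Finset (Fin n), ∃ s ∈ Tg, (s : Matrix (Fin n) (Fin n) K) = tv (∑ i ∈ I, x i • e i) (e k) ∧
        (e k : Fin n → K) ⬝ᵥ (∑ i ∈ I, x i • e i) = 0 := by
      intro I
      induction I using Finset.induction_on with
      | empty => exact ⟨1, Tg.one_mem, by rw [Finset.sum_empty, tv_zero_left]; rfl, by simp⟩
      | insert i I hi ih =>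
        obtain ⟨s, hs, hs1, hs2⟩ := ih
        by_cases hik : i < k
        · refine ⟨T (x i • e i) (e k) (e_dot_e hik.ne _) * s, Tg.mul_mem (hij i k hik _) hs, ?_, ?_⟩
          · rw [Matrix.SpecialLinearGroup.coe_mul, T_coe, hs1, Finset.sum_insert hi,
              tv_mul_tv_right _ _ _ hs2]
          · rw [Finset.sum_insert hi, dotProduct_add, hs2, e_dot_e hik.ne, add_zero]
        · have hxi : x i = 0 := hx i (by rw [Fin.lt_def] at hik; omega)
          refine ⟨s, hs, ?_, ?_⟩
          · rw [Finset.sum_insert hi, hxi, zero_smul, zero_add, hs1]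
          · rw [Finset.sum_insert hi, hxi, zero_smul, zero_add, hs2]
    obtain ⟨s, hs, hs1, -⟩ := h1 Finset.univ
    refine ⟨s, hs, ?_⟩
    rw [hs1, ← eq_sum x]
  -- generation
  have hgen : ∀ r k : ℕ, k + r = n → ∀ g : Matrix.SpecialLinearGroup (Fin n) K, PS g →
      (∀ j : Fin n, j.1 < k → (g : Matrix (Fin n) (Fin n) K) *ᵥ e j = e j) → g ∈ Tg := by
    intro r
    induction r with
    | zero =>
      intro k hk g _ hg
      have : g = 1 := by
        apply ext_act
        intro j
        rw [one_act, hg j (by omega)]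
      rw [this]; exact Tg.one_mem
    | succ r ih =>
      intro k hk g hP hg
      have hkn : k < n := by omega
      set k' : Fin n := ⟨k, hkn⟩ with hk'
      set u := (g : Matrix (Fin n) (Fin n) K) *ᵥ e k' - e k' with hu
      have huE : u ∈ EE n K k := hP k'
      obtain ⟨s, hs, hs1⟩ := hcol k' (-u) (Submodule.neg_mem _ huE)
      have h1 : (s : Matrix (Fin n) (Fin n) K) *ᵥ ((g : Matrix (Fin n) (Fin n) K) *ᵥ e k') = e k' := by
        have h2 : (g : Matrix (Fin n) (Fin n) K) *ᵥ e k' = e k' + u := by rw [hu]; abel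
        rw [h2, hs1, tv_mulVec, e_dot, Pi.add_apply, e_apply, if_pos rfl, huE k' le_rfl, add_zero, one_smul]
        abel
      have h2 : s * g ∈ Tg := by
        apply ih (k + 1) (by omega) _ ((mem_S0.1 (hTS hs)).mul hP)
        intro j hj
        by_cases hjk : j.1 = k
        · have : j = k' := Fin.ext hjk
          rw [this, mul_act]; exact h1
        · rw [mul_act, hg j (by omega), hs1, tv_mulVec, e_dot, e_apply, if_neg, zero_smul, add_zero]
          intro h
          apply hjk
          rw [← h]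
      have h3 : g = s⁻¹ * (s * g) := by group
      rw [h3]
      exact Tg.mul_mem (Tg.inv_mem hs) h2
  intro s hs
  exact hgen n 0 (by omega) s (mem_S0.1 hs) fun j hj => absurd hj (by omega)

end HA

theorem isSimple (hn : 3 ≤ n) (S : Sylow p (ProjectiveSpecialLinearGroup (Fin n) K)) :
    (Cfsg.groupFusionSystem (S : Subgroup (ProjectiveSpecialLinearGroup (Fin n) K))).IsSimple p := by
  haveI : NeZero n := ⟨by omega⟩
  haveI : Nontrivial (Fin n) := Fin.nontrivial_iff_two_le.2 (by omega)
  obtain ⟨S₀, hS₀⟩ := exists_sylow (n := n) (K := K) p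
  have h0l : (⟨0, by omega⟩ : Fin n) < ⟨n - 1, by omega⟩ := by rw [Fin.lt_def]; show 0 < n - 1; omega
  have hne : (S₀ : Subgroup (Matrix.SpecialLinearGroup (Fin n) K)) ≠ ⊥ := by
    rw [hS₀]
    intro h0
    have h1 : T ((1 : K) • e ⟨0, by omega⟩) (e ⟨n - 1, by omega⟩) (e_dot_e h0l.ne 1) ∈ S0 n K :=
      mem_S0.2 (PS_Tij h0l 1)
    rw [h0, Subgroup.mem_bot] at h1
    have h2 := congrArg (fun g : Matrix.SpecialLinearGroup (Fin n) K => (g : Matrix (Fin n) (Fin n) K)) h1
    simp only [T_coe, Matrix.SpecialLinearGroup.coe_one] at h2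
    rw [tv_eq_one_iff] at h2
    rcases h2 with h2 | h2
    · rw [one_smul] at h2; exact e_ne _ h2
    · exact e_ne _ h2
  have hA' : HA (S₀ : Subgroup (Matrix.SpecialLinearGroup (Fin n) K)) := by rw [hS₀]; exact hA p hn
  have hB' : HB p (S₀ : Subgroup (Matrix.SpecialLinearGroup (Fin n) K)) := by rw [hS₀]; exact hB p hn
  haveI : Finite (ProjectiveSpecialLinearGroup (Fin n) K) := Quotient.finite _
  refine QuotFus.isSimple_quot (QuotientGroup.mk' (Subgroup.center (Matrix.SpecialLinearGroup (Fin n) K)))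
    (QuotientGroup.mk'_surjective _) (by rw [QuotientGroup.ker_mk']) ?_ S₀ hne hA' hB' S
  intro z hz N hN
  rw [QuotientGroup.ker_mk'] at hz
  have hord : ∃ k : ℕ, orderOf z = p ^ k := by
    obtain ⟨j, -, hj⟩ := (Nat.dvd_prime_pow Fact.out).1 (orderOf_dvd_of_pow_eq_one hN)
    exact ⟨j, hj⟩
  -- `z` is a transvection with every centre
  have h1 : ∀ i : Fin n, (z : Matrix (Fin n) (Fin n) K) *ᵥ e i = e i := by
    intro i
    obtain ⟨f, hf, hz'⟩ := pCentric_EL p (e_ne i) z
      (Subgroup.mem_centralizer_iff.2 fun r _ => Subgroup.mem_center_iff.1 hz r) hord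
    rw [hz', tv_mulVec, hf, zero_smul, add_zero]
  apply ext_act
  intro j
  rw [h1, one_act]

end H57.FusSL2
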