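import Mathlib
import Cfsg.Agent.Lib.H57.Polar6
import Cfsg.Agent.Lib.H57.QuotFus
import Cfsg.Agent.Lib.H41.SpMatEquiv
import Cfsg.Agent.Lib.H50.AutPSL2

/-!
The `p`-fusion system of `PSp_{2m}(K)` in the defining characteristic is simple.
-/

set_option autoImplicit false

namespace H57.PolarSp

open Module H95.UBasic H57.Polar H57.Polar2 H57.Polar3 H57.Polar4 H57.Polar5 H57.Polar6 H57.FusSimple
  H16.Symp H41.SpMatEquiv Cfsg

variable {K : Type*} [Field K] {m : ℕ}

/-- the symplectic form as a sesquilinear form -/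
noncomputable abbrev hs (m : ℕ) (K : Type*) [Field K] :
    (Fin m ⊕ Fin m → K) →ₗ[K] (Fin m ⊕ Fin m → K) →ₛₗ[RingHom.id K] K := sympBilin m K

theorem sk : Sk (hs m K) where
  inv := fun _ => rfl
  skew := fun x y => sympForm_swap y x
  nd := fun _ h => eq_zero_of_forall_sympForm_right h
  tr := fun x => ⟨0, by
    show (0 : K) - 0 = sympForm m K x x
    rw [sympForm_self, sub_zero]⟩

/-- the standard frame -/
noncomputable def fr : Frame (hs m K) m where
  e := fun j => if hj : j < m then Pi.single (Sum.inr ⟨j, hj⟩) 1 else 0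
  f := fun j => if hj : j < m then Pi.single (Sum.inl ⟨j, hj⟩) 1 else 0
  d := 0
  ee := fun i hi j hj => by
    show sympForm m K _ _ = 0
    rw [dif_pos hi, dif_pos hj, sympForm_single_inr]
    simp
  ff := fun i hi j hj => by
    show sympForm m K _ _ = 0
    rw [dif_pos hi, dif_pos hj, sympForm_single_inl]
    simp
  ef := fun i hi j hj => by
    show sympForm m K _ _ = _
    rw [dif_pos hi, dif_pos hj, sympForm_single_inl]
    by_cases hij : i = j
    · subst hij; simp
    · rw [if_neg hij, Pi.single_eq_of_ne]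
      intro h0
      apply hij
      have := Sum.inr.inj h0
      exact (congrArg Fin.val this).symm
  aniso := fun x hx => ⟨0, by
    rw [zero_smul]
    ext i
    rcases i with i | i
    · have := (hx i.1 i.2).1
      change sympForm m K _ _ = 0 at this
      rw [dif_pos i.2, sympForm_single_inr] at this
      simpa using this
    · have := (hx i.1 i.2).2
      change sympForm m K _ _ = 0 at this
      rw [dif_pos i.2, sympForm_single_inl] at this
      simpa using this⟩

theorem VV_eq {x : Fin m ⊕ Fin m → K} (hx : x ∈ VV (fr (m := m) (K := K)) m) : x = 0 := by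
  obtain ⟨c, hc⟩ := (fr (m := m) (K := K)).aniso x hx
  rw [hc]; exact smul_zero c

theorem adm : Adm (fr (m := m) (K := K)) (H41.SpA.Sp (sympBilin m K)) where
  le := le_rfl
  sieg_mem := fun v w a _ => sieg_isom sk v w a
  fix := fun g _ h1 => eq_one_of_fix (fr := fr) sk le_rfl h1 fun y hy => by rw [VV_eq hy, map_zero]
  last := fun g _ a _ _ _ => ⟨0, Submodule.zero_mem _, by simp⟩

variable [Fintype K] (p : ℕ) [Fact p.Prime] [CharP K p]

theorem isSimple (hm : 2 ≤ m) (hex : m = 2 → 3 ≤ Fintype.card K) (S : Sylow p (PSp m K)) :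
    (groupFusionSystem (S : Subgroup (PSp m K))).IsSimple p := by
  have m0 : 0 < m := by omega
  obtain ⟨S₀, hS₀⟩ := exists_sylow (fr := fr) p sk m0 (adm (m := m) (K := K))
  have hne : (S₀ : Subgroup (H41.SpA.Sp (sympBilin m K))) ≠ ⊥ := by
    rw [hS₀]
    intro h0
    have hg : Polar.Good (hs m K) ((fr (m := m) (K := K)).e 0) 0 1 := good_tr ((fr (m := m) (K := K)).ee 0 m0 0 m0) rfl
    have h1 : sg adm hg ∈ S0 (fr (m := m) (K := K)) (H41.SpA.Sp (sympBilin m K)) :=
      mem_S0.2 (PS_sieg (k := 1) sk (by omega) hg (e_mem_EE _ (by omega)) (by simp))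
    rw [h0, Subgroup.mem_bot] at h1
    have h2 := congrArg (fun g : H41.SpA.Sp (sympBilin m K) => g.1 ((fr (m := m) (K := K)).f 0)) h1
    change sieg (hs m K) ((fr (m := m) (K := K)).e 0) 0 1 ((fr (m := m) (K := K)).f 0) = (fr (m := m) (K := K)).f 0 at h2
    rw [sieg_apply hg] at h2
    have h3 := congrArg (fun x => hs m K x ((fr (m := m) (K := K)).f 0)) h2
    simp only [map_add, map_smul, LinearMap.add_apply, LinearMap.smul_apply, smul_eq_mul, smul_zero,
      LinearMap.zero_apply, map_zero, mul_zero, zero_mul, add_zero] at h3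
    rw [(fr (m := m) (K := K)).ef 0 m0 0 m0, if_pos rfl, fe sk m0 m0, if_pos rfl,
      (fr (m := m) (K := K)).ff 0 m0 0 m0] at h3
    norm_num at h3
  have hA' : HA (S₀ : Subgroup (H41.SpA.Sp (sympBilin m K))) := by
    rw [hS₀]
    apply hA p sk hm adm
    · intro c _
      obtain ⟨a, b, hab⟩ := H50.AutPSL2.exists_sq_add_sq c
      exact ⟨a, b, by rw [hab]; simp only [RingHom.id_apply]; ring⟩
    · intro _ _ hm2
      by_contra hcon
      push Not at hcon
      have h1 := hex hm2
      have h2 : Fintype.card K ≤ 2 := by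
        classical
        have h3 : (Finset.univ : Finset K) ⊆ {0, 1} := by
          intro c _
          by_cases hc : c = 0
          · simp [hc]
          · simp [hcon c hc]
        have h4 := Finset.card_le_card h3
        have h5 : ({0, 1} : Finset K).card ≤ 2 := Finset.card_le_two
        rw [Finset.card_univ] at h4
        omega
      omega
  have hB' : HB p (S₀ : Subgroup (H41.SpA.Sp (sympBilin m K))) := by
    rw [hS₀]; exact hB p sk hm adm
  -- the projection
  let π : H41.SpA.Sp (sympBilin m K) →* PSp m K :=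
    (QuotientGroup.mk' (Subgroup.center (Matrix.symplecticGroup (Fin m) K))).comp
      (H41.SpMatEquiv.equiv m K).symm.toMonoidHom
  have hπ : Function.Surjective π :=
    (QuotientGroup.mk'_surjective _).comp (H41.SpMatEquiv.equiv m K).symm.surjective
  have hker : π.ker ≤ Subgroup.center _ := by
    intro z hz
    rw [MonoidHom.mem_ker] at hz
    have h1 : (H41.SpMatEquiv.equiv m K).symm z ∈ Subgroup.center (Matrix.symplecticGroup (Fin m) K) :=
      (QuotientGroup.eq_one_iff _).1 hz
    rw [Subgroup.mem_center_iff] at h1 ⊢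
    intro g
    have h2 := h1 ((H41.SpMatEquiv.equiv m K).symm g)
    apply (H41.SpMatEquiv.equiv m K).symm.injective
    rw [map_mul, map_mul, h2]
  exact QuotFus.isSimple_quot π hπ hker (fun z hz n hn => center_pfree p sk (by omega) adm (hker hz) hn)
    S₀ hne hA' hB' S

end H57.PolarSp
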