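import Cfsg.Agent.Lib.H57.RCVa
import Cfsg.Agent.Lib.H57.RCUd

set_option autoImplicit false
set_option maxRecDepth 100000

/-! S3330 (helper54), piece cuV. -/

open Equiv Subgroup H54.RA H57.RCU

namespace H57.RCV

universe u

theorem d_v4 : ∀ σ : Perm (Fin 5), σ * b0 = b0 * σ → σ * u0 = u0 * σ →
    σ * σ = 1 ∧ Perm.sign σ = 1 ∧ (σ = 1 ∨ σ = b0 ∨ σ = u0 ∨ σ = u0 * b0) := by decide +kernel

theorem d_d5 : ∀ σ : Perm (Fin 5), σ * d5 = d5 * σ → Perm.sign σ = 1 → σ = 1 ∨ σ = d5 ∨ σ = d5 * d5 := by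
  decide +kernel
theorem d_d53 : d5 ^ 3 = 1 := by decide +kernel
theorem d_d51 : d5 ≠ 1 := by decide +kernel
theorem d_sd5 : Perm.sign (1 : Perm (Fin 5)) = Perm.sign d5 := by decide +kernel

variable {G : Type u} [Group G] [Finite G] {Φ : EE →* G} {n : G}

/-- `exhP` for elements of order dividing 4 -/
lemma exhP4 (h : TM Φ n) (y : G) (hy : y * Φ (mkE b0 1 sb0) = Φ (mkE b0 1 sb0) * y) (hyy : y ^ 4 = 1) :
    ∃ b : G, b * Φ (mkE b0 1 sb0) = Φ (mkE b0 1 sb0) * b ∧ b * y * b⁻¹ ∈ Φ.range := by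
  haveI : Fact (Nat.Prime 2) := ⟨Nat.prime_two⟩
  obtain ⟨Q, hQ, -⟩ := exQ h
  let yB : ↥(centralizer ({Φ (mkE b0 1 sb0)} : Set G)) := ⟨y, mem_centralizer_singleton_iff.2 hy⟩
  have p1 : IsPGroup 2 (zpowers yB) := by
    have h2 : yB ^ 4 = 1 := Subtype.ext hyy
    obtain ⟨k, -, hk⟩ := (Nat.dvd_prime_pow Nat.prime_two).1
      (show orderOf yB ∣ 2 ^ 2 by exact orderOf_dvd_of_pow_eq_one h2)
    apply IsPGroup.of_card (n := k)
    rw [Nat.card_zpowers, hk]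
  obtain ⟨Q', hQ'⟩ := p1.exists_le_sylow
  obtain ⟨b, hb⟩ := MulAction.exists_smul_eq ↥(centralizer ({Φ (mkE b0 1 sb0)} : Set G)) Q' Q
  have h3 : b * yB * b⁻¹ ∈ Q := by
    rw [← hb]
    have : b * yB * b⁻¹ = MulAut.conj b • yB := rfl
    rw [this]
    exact Subgroup.smul_mem_pointwise_smul _ _ _ (hQ' (mem_zpowers yB))
  exact ⟨b, mem_centralizer_singleton_iff.1 b.2, hQ _ h3⟩

/-- conjugating into the range inside `C(V)` -/
lemma exC (h : TM Φ n) (y : G) (hy : y * Φ (mkE b0 1 sb0) = Φ (mkE b0 1 sb0) * y) (hyy : y ^ 4 = 1) :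
    ∃ c : G, c * Φ (mkE b0 1 sb0) = Φ (mkE b0 1 sb0) * c ∧
      c * Φ (mkE u0 1 su0) = Φ (mkE u0 1 su0) * c ∧ c * y * c⁻¹ ∈ Φ.range := by
  obtain ⟨g, hg, hr⟩ := exhP4 h y hy hyy
  rcases conj_u h hg with h1 | h1
  · refine ⟨g, hg, ?_, hr⟩
    calc g * Φ (mkE u0 1 su0) = (g * Φ (mkE u0 1 su0) * g⁻¹) * g := by group
      _ = Φ (mkE u0 1 su0) * g := by rw [h1]
  · have htj : Φ tE * Φ (mkE b0 1 sb0) = Φ (mkE b0 1 sb0) * Φ tE := by
      rw [comm_iff h]; exact Subtype.ext (Prod.ext d_tb rfl)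
    have htu : Φ tE * Φ (mkE u0 1 su0) * (Φ tE)⁻¹ = Φ (mkE u0 1 su0) * Φ (mkE b0 1 sb0) := by
      rw [← map_inv, ← map_mul, ← map_mul, ← map_mul]
      congr 1
      refine Subtype.ext (Prod.ext d_tu ?_)
      show t5 * 1 * t5⁻¹ = 1 * 1
      rw [mul_one, mul_inv_cancel, one_mul]
    have hjj : Φ (mkE b0 1 sb0) * Φ (mkE b0 1 sb0) = 1 := by
      rw [← map_mul]
      have : mkE b0 1 sb0 * mkE b0 1 sb0 = 1 := Subtype.ext (Prod.ext d_bb (one_mul 1))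
      rw [this, map_one]
    have h2 : (Φ tE * g) * Φ (mkE u0 1 su0) * (Φ tE * g)⁻¹ = Φ (mkE u0 1 su0) := by
      calc (Φ tE * g) * Φ (mkE u0 1 su0) * (Φ tE * g)⁻¹
          = Φ tE * (g * Φ (mkE u0 1 su0) * g⁻¹) * (Φ tE)⁻¹ := by group
        _ = Φ tE * (Φ (mkE u0 1 su0) * Φ (mkE b0 1 sb0)) * (Φ tE)⁻¹ := by rw [h1]
        _ = (Φ tE * Φ (mkE u0 1 su0) * (Φ tE)⁻¹) * (Φ tE * Φ (mkE b0 1 sb0) * (Φ tE)⁻¹) := by group
        _ = Φ (mkE u0 1 su0) * Φ (mkE b0 1 sb0) * (Φ (mkE b0 1 sb0) * Φ tE * (Φ tE)⁻¹) := by rw [htu, htj]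
        _ = Φ (mkE u0 1 su0) * (Φ (mkE b0 1 sb0) * Φ (mkE b0 1 sb0)) := by group
        _ = Φ (mkE u0 1 su0) := by rw [hjj, mul_one]
    refine ⟨Φ tE * g, ?_, ?_, ?_⟩
    · calc Φ tE * g * Φ (mkE b0 1 sb0) = Φ tE * (g * Φ (mkE b0 1 sb0)) := by group
        _ = (Φ tE * Φ (mkE b0 1 sb0)) * g := by rw [hg]; group
        _ = Φ (mkE b0 1 sb0) * (Φ tE * g) := by rw [htj]; group
    · calc Φ tE * g * Φ (mkE u0 1 su0)
          = ((Φ tE * g) * Φ (mkE u0 1 su0) * (Φ tE * g)⁻¹) * (Φ tE * g) := by group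
        _ = Φ (mkE u0 1 su0) * (Φ tE * g) := by rw [h2]
    · have : Φ tE * g * y * (Φ tE * g)⁻¹ = Φ tE * (g * y * g⁻¹) * (Φ tE)⁻¹ := by group
      rw [this]
      exact mul_mem (mul_mem ⟨tE, rfl⟩ hr) (inv_mem ⟨tE, rfl⟩)

/-- the centralizer of `V` -/
def CV (Φ : EE →* G) : Subgroup G :=
  centralizer ({Φ (mkE b0 1 sb0)} : Set G) ⊓ centralizer ({Φ (mkE u0 1 su0)} : Set G)

lemma mem_CV {g : G} : g ∈ CV Φ ↔ g * Φ (mkE b0 1 sb0) = Φ (mkE b0 1 sb0) * g ∧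
    g * Φ (mkE u0 1 su0) = Φ (mkE u0 1 su0) * g := by
  rw [CV, mem_inf, mem_centralizer_singleton_iff, mem_centralizer_singleton_iff]

/-- `V` -/
def VV (Φ : EE →* G) : Subgroup (CV Φ) where
  carrier := {c | ∃ x : EE, x.1.2 = 1 ∧ Φ x = c}
  one_mem' := ⟨1, rfl, map_one Φ⟩
  mul_mem' := by
    rintro a b ⟨x, hx, hxa⟩ ⟨y, hy, hyb⟩
    refine ⟨x * y, ?_, ?_⟩
    · show x.1.2 * y.1.2 = 1
      rw [hx, hy, one_mul]
    · rw [map_mul, hxa, hyb]; rfl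
  inv_mem' := by
    rintro a ⟨x, hx, hxa⟩
    refine ⟨x⁻¹, ?_, ?_⟩
    · show x.1.2⁻¹ = 1
      rw [hx, inv_one]
    · rw [map_inv, hxa]; rfl

lemma mem_VV {c : CV Φ} : c ∈ VV Φ ↔ ∃ x : EE, x.1.2 = 1 ∧ Φ x = c := Iff.rfl

/-- elements of the range in `C(V)` -/
lemma comp1 (h : TM Φ n) {x : EE} (hx : Φ x ∈ CV Φ) : x.1.1 * x.1.1 = 1 ∧ Perm.sign x.1.1 = 1 ∧
    (x.1.1 = 1 ∨ x.1.1 = b0 ∨ x.1.1 = u0 ∨ x.1.1 = u0 * b0) := by
  obtain ⟨h1, h2⟩ := mem_CV.1 hx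
  rw [comm_iff h] at h1 h2
  exact d_v4 x.1.1 (congrArg (fun z : EE => z.1.1) h1) (congrArg (fun z : EE => z.1.1) h2)

lemma alt_mem (h : TM Φ n) (τ : Perm (Fin 5)) (hs : Perm.sign (1 : Perm (Fin 5)) = Perm.sign τ) :
    Φ (mkE 1 τ hs) ∈ CV Φ := by
  rw [mem_CV, comm_iff h, comm_iff h]
  constructor
  · refine Subtype.ext (Prod.ext ?_ ?_)
    · show 1 * b0 = b0 * 1
      rw [one_mul, mul_one]
    · show τ * 1 = 1 * τ
      rw [one_mul, mul_one]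
  · refine Subtype.ext (Prod.ext ?_ ?_)
    · show 1 * u0 = u0 * 1
      rw [one_mul, mul_one]
    · show τ * 1 = 1 * τ
      rw [one_mul, mul_one]

/-- the map `Alt(5) → C(V)` -/
def altV (h : TM Φ n) : alternatingGroup (Fin 5) →* CV Φ where
  toFun τ := ⟨Φ (mkE 1 τ.1 (by rw [Perm.mem_alternatingGroup.1 τ.2]; simp)), alt_mem h _ _⟩
  map_one' := Subtype.ext (by
    show Φ (mkE 1 1 _) = 1
    rw [← map_one Φ]; rfl)
  map_mul' a b := Subtype.ext (by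
    show Φ (mkE 1 (a.1 * b.1) _) = Φ (mkE 1 a.1 _) * Φ (mkE 1 b.1 _)
    rw [← map_mul]
    congr 1)

/-- decomposition of range elements -/
lemma decomp (h : TM Φ n) {c : CV Φ} {x : EE} (hx : Φ x = c) : ∃ v ∈ VV Φ, ∃ a, c = v * altV h a ∧ a.1 = x.1.2 := by
  have hc := comp1 h (x := x) (by rw [hx]; exact c.2)
  have hs : Perm.sign x.1.2 = 1 := by
    have h5 : Perm.sign x.1.1 = Perm.sign x.1.2 := x.2
    rw [← h5, hc.2.1]
  have ha : x.1.2 ∈ alternatingGroup (Fin 5) := Perm.mem_alternatingGroup.2 hs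
  refine ⟨c * (altV h ⟨x.1.2, ha⟩)⁻¹, ?_, ⟨x.1.2, ha⟩, by group, rfl⟩
  rw [mem_VV]
  refine ⟨x * (mkE 1 x.1.2 (by rw [hs]; simp))⁻¹, ?_, ?_⟩
  · show x.1.2 * x.1.2⁻¹ = 1
    rw [mul_inv_cancel]
  · rw [map_mul, map_inv, hx]; rfl

theorem cuV_of (h7 : Nat.card (Matrix.ProjectiveSpecialLinearGroup (Fin 2) (ZMod 7)) = 168) (h : TM Φ n) (g : G)
    (hg : g * Φ (mkE b0 1 sb0) = Φ (mkE b0 1 sb0) * g)
    (hg2 : g * Φ (mkE (swap 0 1 * swap 2 4) 1 (by decide +kernel)) =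
      Φ (mkE (swap 0 1 * swap 2 4) 1 (by decide +kernel)) * g) : g ∈ Φ.range := by
  have hd : d5 ∈ alternatingGroup (Fin 5) := by
    rw [Perm.mem_alternatingGroup, ← d_sd5]; simp
  have key := absV h7 (VV Φ)
    (by
      rintro v ⟨x, hx2, hx⟩
      rw [mem_center_iff]
      intro c
      obtain ⟨h1, h2⟩ := mem_CV.1 c.2
      have hc := comp1 h (x := x) (by rw [hx]; exact v.2)
      apply Subtype.ext
      show (c : G) * v = v * c
      rw [← hx]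
      rcases hc.2.2 with h3 | h3 | h3 | h3
      · have : x = 1 := Subtype.ext (Prod.ext h3 hx2)
        rw [this, map_one, one_mul, mul_one]
      · have : x = mkE b0 1 sb0 := Subtype.ext (Prod.ext h3 hx2)
        rw [this, h1]
      · have : x = mkE u0 1 su0 := Subtype.ext (Prod.ext h3 hx2)
        rw [this, h2]
      · have : x = mkE u0 1 su0 * mkE b0 1 sb0 :=
          Subtype.ext (Prod.ext h3 (by rw [hx2]; exact (one_mul 1).symm))
        rw [this, map_mul, ← mul_assoc, h2, mul_assoc, h1, mul_assoc])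
    (by
      rintro v ⟨x, hx2, hx⟩
      have hc := comp1 h (x := x) (by rw [hx]; exact v.2)
      apply Subtype.ext
      show (v : G) * v = 1
      rw [← hx, ← map_mul]
      have : x * x = 1 := Subtype.ext (Prod.ext hc.1 (by show x.1.2 * x.1.2 = 1; rw [hx2, one_mul]))
      rw [this, map_one])
    (altV h)
    (by
      rintro a ⟨x, hx2, hx⟩
      have h1 : Φ x = Φ (mkE 1 a.1 (by rw [Perm.mem_alternatingGroup.1 a.2]; simp)) := hx
      have h2 : x.1.2 = a.1 := congrArg (fun z : EE => z.1.2) (h.inj h1)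
      exact Subtype.ext (by rw [← h2, hx2]; rfl))
    ⟨d5, hd⟩
    (Subtype.ext d_d53) (fun h1 => d_d51 (congrArg Subtype.val h1))
    (by
      intro c hc
      have hcw' : (c : G) * Φ (mkE 1 d5 d_sd5) = Φ (mkE 1 d5 d_sd5) * c := congrArg Subtype.val hc
      have hn : n * Φ (mkE d5 1 (by decide +kernel)) * n⁻¹ = Φ (mkE 1 d5 d_sd5) := h.nc d5 1 _
      have h7 : (n⁻¹ * (c : G) * n) * Φ (mkE d5 1 (by decide +kernel)) =
          Φ (mkE d5 1 (by decide +kernel)) * (n⁻¹ * (c : G) * n) := by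
        calc (n⁻¹ * (c : G) * n) * Φ (mkE d5 1 (by decide +kernel))
            = n⁻¹ * (c * (n * Φ (mkE d5 1 (by decide +kernel)) * n⁻¹)) * n := by group
          _ = n⁻¹ * ((n * Φ (mkE d5 1 (by decide +kernel)) * n⁻¹) * c) * n := by rw [hn, hcw']
          _ = Φ (mkE d5 1 (by decide +kernel)) * (n⁻¹ * (c : G) * n) := by group
      obtain ⟨x, hx⟩ := h.cw _ h7
      obtain ⟨x', -, -, hx'⟩ := nconj h x
      have h8 : Φ x' = c := by rw [← hx', hx]; group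
      obtain ⟨v, hv, a, hva, ha⟩ := decomp h h8
      have h9 : x'.1.2 * d5 = d5 * x'.1.2 := by
        have h10 : Φ x' * Φ (mkE 1 d5 d_sd5) = Φ (mkE 1 d5 d_sd5) * Φ x' := by rw [h8]; exact hcw'
        rw [comm_iff h] at h10
        exact congrArg (fun z : EE => z.1.2) h10
      have h11 : Perm.sign x'.1.2 = 1 := by rw [← ha]; exact Perm.mem_alternatingGroup.1 a.2
      refine ⟨v, hv, ?_⟩
      rcases d_d5 _ h9 h11 with h12 | h12 | h12
      · refine ⟨0, ?_⟩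
        have : a = 1 := Subtype.ext (by rw [ha, h12]; rfl)
        rw [hva, this, map_one, pow_zero]
      · refine ⟨1, ?_⟩
        have : a = ⟨d5, hd⟩ := Subtype.ext (by rw [ha, h12])
        rw [hva, this, pow_one]
      · refine ⟨2, ?_⟩
        have : a = ⟨d5, hd⟩ * ⟨d5, hd⟩ := Subtype.ext (by rw [ha, h12]; rfl)
        rw [hva, this, map_mul, pow_two])
    (by
      intro y hy
      obtain ⟨h1, h2⟩ := mem_CV.1 y.2
      obtain ⟨c, hc1, hc2, x, hx⟩ := exC h (y : G) h1 (by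
        have := congrArg Subtype.val hy
        exact this)
      let c' : CV Φ := ⟨c, mem_CV.2 ⟨hc1, hc2⟩⟩
      obtain ⟨v, hv, a, hva, -⟩ := decomp h (c := c' * y * c'⁻¹) (x := x) hx
      exact ⟨c', v, hv, a, hva⟩)
  obtain ⟨v, ⟨x, -, hx⟩, a, ha⟩ := key ⟨g, mem_CV.2 ⟨hg, hg2⟩⟩
  have h1 : g = (v : G) * (altV h a : CV Φ) := congrArg Subtype.val ha
  rw [h1, ← hx]
  exact mul_mem ⟨x, rfl⟩ ⟨_, rfl⟩

end H57.RCV
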