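import Cfsg.Agent.Lib.H57.RCV
import Cfsg.Agent.Lib.H6.SmallIsoA

set_option autoImplicit false
set_option maxRecDepth 100000

/-! S3330 (helper54), piece cuV: final statement. -/

open Equiv Subgroup H54.RA H57.RCU

namespace H57.RCV

universe u

theorem card_psl7 : Nat.card (Matrix.ProjectiveSpecialLinearGroup (Fin 2) (ZMod 7)) = 168 := by
  haveI : Fact (Nat.Prime 7) := ⟨by norm_num⟩
  have h1 := H6.SmallIsoA.card_psl2 (F := ZMod 7)
  rw [ZMod.card, show Nat.gcd 2 (7 - 1) = 2 from rfl] at h1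
  omega

theorem cuV {G : Type u} [Group G] [Finite G] {Φ : EE →* G} {n : G} (h : TM Φ n) (g : G)
    (hg : g * Φ (mkE b0 1 sb0) = Φ (mkE b0 1 sb0) * g)
    (hg2 : g * Φ (mkE (swap 0 1 * swap 2 4) 1 (by decide +kernel)) =
      Φ (mkE (swap 0 1 * swap 2 4) 1 (by decide +kernel)) * g) : g ∈ Φ.range :=
  cuV_of card_psl7 h g hg hg2

/-- the centralizer of `Φ (b0, 1)` is in the range -/
theorem cu {G : Type u} [Group G] [Finite G] {Φ : EE →* G} {n : G} (h : TM Φ n) (g : G)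
    (hg : g * Φ (mkE b0 1 sb0) = Φ (mkE b0 1 sb0) * g) : g ∈ Φ.range :=
  cu_of h (fun g hg hg2 => cuV h g hg hg2) g hg

end H57.RCV
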