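import Cfsg.Agent.Lib.H61.A8Five
import Cfsg.Agent.Lib.H61.A8Emb

/-! S3104, first part: nonsolvable groups with trivial 2-core inside `A₈`. -/

set_option autoImplicit false

namespace H57.Td

open Subgroup Cfsg H61.A8Sub

universe u

theorem solvable_of_quot {Q : Type*} [Group Q] (N : Subgroup Q) [N.Normal]
    (h1 : Group.IsSolvable N) (h2 : Group.IsSolvable (Q ⧸ N)) : Group.IsSolvable Q := by
  haveI := h1
  haveI := h2
  refine Group.isSolvable_of_ker_le_range (f := N.subtype) (g := QuotientGroup.mk' N) ?_
  rw [QuotientGroup.ker_mk', Subgroup.range_subtype]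

/-- centraliser orders of elements of odd prime order in `S₈` -/
theorem cent_orders {g : P8} {p : ℕ} (hp : p.Prime) (hp2 : p ≠ 2) (hg : orderOf g = p) :
    (p = 7 ∧ Nat.card (centralizer {g}) = 7) ∨ (p = 5 ∧ Nat.card (centralizer {g}) = 30) ∨
      (p = 3 ∧ Nat.card (centralizer {g}) = 36) ∨
        (p = 3 ∧ g.cycleType = {3} ∧ Nat.card (centralizer {g}) = 360) := by
  obtain ⟨n, hn⟩ := Equiv.Perm.cycleType_prime_order (σ := g) (by rw [hg]; exact hp)
  rw [hg] at hn
  have hle : (n + 1) * p ≤ 8 := by
    have := Equiv.Perm.sum_cycleType_le g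
    rw [hn, Multiset.sum_replicate, smul_eq_mul, Fintype.card_fin] at this
    exact this
  have hp3 : 3 ≤ p := by have := hp.two_le; omega
  have hp8 : p ≤ 8 := by nlinarith
  have hn1 : n ≤ 1 := by nlinarith
  have hp357 : p = 3 ∨ p = 5 ∨ p = 7 := by
    interval_cases p
    · exact Or.inl rfl
    · exact absurd hp (by norm_num)
    · exact Or.inr (Or.inl rfl)
    · exact absurd hp (by norm_num)
    · exact Or.inr (Or.inr rfl)
    · exact absurd hp (by norm_num)
  rcases hp357 with rfl | rfl | rfl
  · interval_cases n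
    · refine Or.inr (Or.inr (Or.inr ⟨rfl, hn, ?_⟩))
      rw [Equiv.Perm.nat_card_centralizer, hn]
      decide
    · refine Or.inr (Or.inr (Or.inl ⟨rfl, ?_⟩))
      rw [Equiv.Perm.nat_card_centralizer, hn]
      decide
  · have : n = 0 := by omega
    subst this
    refine Or.inr (Or.inl ⟨rfl, ?_⟩)
    rw [Equiv.Perm.nat_card_centralizer, hn]
    decide
  · have : n = 0 := by omega
    subst this
    refine Or.inl ⟨rfl, ?_⟩
    rw [Equiv.Perm.nat_card_centralizer, hn]
    decide

theorem aut_order {P : Type*} [Group P] [Finite P] (h9 : Nat.card P = 9) (α : MulAut P)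
    (h : α ^ 5 = 1) : α = 1 := by
  haveI : Fact (Nat.Prime 5) := ⟨by norm_num⟩
  have hp : IsPGroup 5 (zpowers α) := by
    rintro ⟨x, k, rfl⟩
    refine ⟨1, Subtype.ext ?_⟩
    change (α ^ k) ^ (5 ^ 1) = 1
    rw [pow_one, ← zpow_natCast, ← zpow_mul, mul_comm, zpow_mul, zpow_natCast, h, one_zpow]
  have h1 := hp.card_modEq_card_fixedPoints P
  let F : Subgroup P :=
    { carrier := {x | α x = x}
      one_mem' := map_one α
      mul_mem' := by
        intro a b ha hb
        change α (a * b) = a * b
        rw [map_mul, ha, hb]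
      inv_mem' := by
        intro a ha
        change α a⁻¹ = a⁻¹
        rw [map_inv, ha] }
  have h2 : (MulAction.fixedPoints (zpowers α) P : Set P) = F := by
    ext x
    constructor
    · intro hx
      exact hx ⟨α, mem_zpowers α⟩
    · intro hx
      have hx' : α x = x := hx
      rintro ⟨_, k, rfl⟩
      change (α ^ k) x = x
      have h3 : α ∈ MulAction.stabilizer (MulAut P) x := hx'
      exact zpow_mem h3 k
  have h3 : Nat.card (MulAction.fixedPoints (zpowers α) P) = Nat.card F := by rw [h2]; rfl
  rw [h3, h9] at h1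
  have h4 : Nat.card F ∣ 9 := by rw [← h9]; exact card_subgroup_dvd_card F
  have h5 : Nat.card F = 9 := by
    have h6 : Nat.card F ≤ 9 := Nat.le_of_dvd (by norm_num) h4
    generalize Nat.card F = c at *
    interval_cases c <;> first | rfl | (exfalso; revert h4 h1; decide)
  have h6 : F = ⊤ := eq_top_of_card_eq F (by rw [h5, h9])
  ext x
  have : x ∈ F := by rw [h6]; exact mem_top _
  exact this

theorem three_core {Q : Type u} [Group Q] [Finite Q] (f : Q →* P8) (hf : Function.Injective f)
    (hA : f.range ≤ alternatingGroup (Fin 8)) (hns : ¬ Group.IsSolvable Q) (hrf : ¬ RF Q)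
    (hO2 : pCore 2 Q = ⊥) :
    Nat.card (pCore 3 Q) = 3 ∧ (Nonempty (Q ⧸ pCore 3 Q ≃* alternatingGroup (Fin 5)) ∨
      Nonempty (Q ⧸ pCore 3 Q ≃* Equiv.Perm (Fin 5))) := by
  classical
  have hcard : Nat.card Q ∣ 20160 := by
    have h := card_dvd hA
    rwa [Nat.card_congr (MonoidHom.ofInjective hf).toEquiv.symm] at h
  obtain ⟨p, hp, hp2, hPne⟩ : ∃ p : ℕ, p.Prime ∧ p ≠ 2 ∧ pCore p Q ≠ ⊥ := by
    unfold RF at hrf
    push Not at hrf
    obtain ⟨N, hN, hs, hne⟩ := hrf
    haveI : Nontrivial N := (Subgroup.nontrivial_iff_ne_bot N).2 hne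
    obtain ⟨p, hp, hpc⟩ := H1.Hall.exists_pCore_ne_bot hs
    haveI := Fact.mk hp
    haveI hchar : (pCore p N).Characteristic := H1.Cores.pCore_characteristic p
    have hnor : ((pCore p N).map N.subtype).Normal := inferInstance
    have hP : IsPGroup p ((pCore p N).map N.subtype) := (H1.Cores.isPGroup_pCore p).map _
    have hne2 : (pCore p N).map N.subtype ≠ ⊥ := by
      intro h
      apply hpc
      rwa [Subgroup.map_eq_bot_iff_of_injective _ N.subtype_injective] at h
    have h3 : pCore p Q ≠ ⊥ := by
      intro h4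
      apply hne2
      rw [eq_bot_iff, ← h4]
      exact H1.Cores.le_pCore hnor hP
    refine ⟨p, hp, ?_, h3⟩
    rintro rfl
    exact h3 hO2
  haveI := Fact.mk hp
  obtain ⟨P, hPd⟩ : ∃ P, P = pCore p Q := ⟨_, rfl⟩
  rw [← hPd] at hPne
  have hPn : P.Normal := by rw [hPd]; infer_instance
  have hPp : IsPGroup p P := by rw [hPd]; exact H1.Cores.isPGroup_pCore p
  obtain ⟨k, hk⟩ := IsPGroup.iff_card.1 hPp
  have hk0 : k ≠ 0 := by
    rintro rfl
    rw [pow_zero] at hk
    exact hPne (card_eq_one.1 hk)
  obtain ⟨y, hy⟩ := exists_prime_orderOf_dvd_card' (G := P) p (by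
    rw [hk]; exact dvd_pow_self p hk0)
  have hfy : orderOf (f y) = p := by
    rw [orderOf_injective f hf, Subgroup.orderOf_coe, hy]
  have hPc : Nat.card P ∣ 20160 := (card_subgroup_dvd_card P).trans hcard
  have hco := cent_orders hp hp2 hfy
  -- `|P| ≠ 9`
  have hP9 : Nat.card P ≠ 9 := by
    intro h9
    have h93 : p = 3 := by
      rw [h9] at hk
      have : p ∣ 9 := by rw [hk]; exact dvd_pow_self p hk0
      have h3 : p ∣ 3 ^ 2 := by simpa using this
      exact (Nat.prime_dvd_prime_iff_eq hp Nat.prime_three).1 (hp.dvd_of_dvd_pow h3)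
    by_cases h5 : 5 ∣ Nat.card Q
    · haveI : Fact (Nat.Prime 5) := ⟨by norm_num⟩
      obtain ⟨x, hx⟩ := exists_prime_orderOf_dvd_card' (G := Q) 5 h5
      have h1 : (MulAut.conjNormal x : MulAut P) = 1 := by
        apply aut_order h9
        rw [← map_pow, ← hx, pow_orderOf_eq_one, map_one]
      have h2 : ∀ z ∈ P, x * z * x⁻¹ = z := by
        intro z hz
        have := congrArg (fun α : MulAut P => ((α ⟨z, hz⟩ : P) : Q)) h1
        simpa using this
      have h3 : P.map f ≤ centralizer {f x} := by
        rintro _ ⟨z, hz, rfl⟩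
        rw [mem_centralizer_singleton_iff, ← map_mul, ← map_mul]
        congr 1
        have := h2 z hz
        calc z * x = (x * z * x⁻¹) * x := by rw [this]
          _ = x * z := by group
      have h4 := card_dvd_of_le h3
      rw [card_map_of_injective hf, h9] at h4
      have hfx : orderOf (f x) = 5 := by rw [orderOf_injective f hf, hx]
      rcases cent_orders (by norm_num) (by norm_num) hfx with h6 | h6 | h6 | h6
      · exact absurd h6.1 (by norm_num)
      · rw [h6.2] at h4; revert h4; decide
      · exact absurd h6.1 (by norm_num)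
      · exact absurd h6.1 (by norm_num)
    · have hns' : ¬ Group.IsSolvable f.range := by
        intro hs
        haveI := hs
        exact hns (Group.isSolvable_of_isSolvable_injective
          (f := (MonoidHom.ofInjective hf).toMonoidHom) (MonoidHom.ofInjective hf).injective)
      have hcc : Nat.card f.range = Nat.card Q :=
        (Nat.card_congr (MonoidHom.ofInjective hf).toEquiv).symm
      have h1 := card_of hA hns' (by rw [hcc]; exact h5)
      rw [hcc] at h1
      have h2 : 9 ∣ Nat.card Q := by rw [← h9]; exact card_subgroup_dvd_card P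
      rcases h1 with h1 | h1 <;> rw [h1] at h2 <;> revert h2 <;> decide
  -- `|P| = p`
  have hPcard : Nat.card P = p := by
    have h1 : k = 1 := by
      by_contra h1
      have hk2 : 2 ≤ k := by omega
      have h2 : p ^ 2 ∣ 20160 := (pow_dvd_pow p hk2).trans (hk ▸ hPc)
      rcases hco with h | h | h | h
      · rw [h.1] at h2; revert h2; decide
      · rw [h.1] at h2; revert h2; decide
      · have hk2' : k = 2 := by
          by_contra h3
          have h4 : p ^ 3 ∣ 20160 := (pow_dvd_pow p (by omega)).trans (hk ▸ hPc)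
          rw [h.1] at h4; revert h4; decide
        apply hP9; rw [hk, hk2', h.1]; norm_num
      · have hk2' : k = 2 := by
          by_contra h3
          have h4 : p ^ 3 ∣ 20160 := (pow_dvd_pow p (by omega)).trans (hk ▸ hPc)
          rw [h.1] at h4; revert h4; decide
        apply hP9; rw [hk, hk2', h.1]; norm_num
    rw [hk, h1, pow_one]
  haveI hcyc : IsCyclic P := isCyclic_of_prime_card hPcard
  -- the centraliser is not solvable
  have hCn : (centralizer (P : Set Q)).Normal := inferInstance
  have hker : (MulAut.conjNormal (H := P)).ker = centralizer (P : Set Q) := by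
    ext x
    rw [MonoidHom.mem_ker, mem_centralizer_iff]
    constructor
    · intro h1 z hz
      have h2 := congrArg (fun α : MulAut P => ((α ⟨z, hz⟩ : P) : Q)) h1
      have h3 : x * z * x⁻¹ = z := by simpa using h2
      calc z * x = (x * z * x⁻¹) * x := by rw [h3]
        _ = x * z := by group
    · intro h1
      ext z
      rw [MulAut.conjNormal_apply]
      change x * z * x⁻¹ = z
      rw [← h1 z z.2]; group
  have hCns : ¬ Group.IsSolvable (centralizer (P : Set Q)) := by
    intro hs
    apply hns
    apply solvable_of_quot _ hs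
    have h1 : Nat.card (Q ⧸ centralizer (P : Set Q)) ∣ 12 := by
      have h2 : Nat.card (Q ⧸ centralizer (P : Set Q)) =
          Nat.card (MulAut.conjNormal (H := P)).range := by
        rw [← hker]
        exact Nat.card_congr (QuotientGroup.quotientKerEquivRange _).toEquiv
      rw [h2]
      refine (card_subgroup_dvd_card _).trans ?_
      rw [IsCyclic.card_mulAut, hPcard, Nat.totient_prime hp]
      rcases hco with h | h | h | h <;> rw [h.1] <;> decide
    refine H60.Ord60.solvable_of_dvd (h1.trans (by decide)) ?_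
    intro h2
    rw [h2] at h1
    revert h1; decide
  have hCdvd : Nat.card (centralizer (P : Set Q)) ∣ Nat.card (centralizer {f y}) := by
    have h1 : (centralizer (P : Set Q)).map f ≤ centralizer {f (y : Q)} := by
      rintro _ ⟨z, hz, rfl⟩
      rw [mem_centralizer_singleton_iff, ← map_mul, ← map_mul]
      congr 1
      exact (mem_centralizer_iff.1 hz y y.2).symm
    have h2 := card_dvd_of_le h1
    rwa [card_map_of_injective hf] at h2
  have hcyc3 : p = 3 ∧ (f y).cycleType = {3} := by
    rcases hco with h | h | h | h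
    · exfalso
      apply hCns
      rw [h.2] at hCdvd
      have h7 : (7 : ℕ).Prime := by norm_num
      rcases (Nat.dvd_prime h7).1 hCdvd with h1 | h1
      · exact H98.DicksonSolv.solvable_of_card 0 0 (by rw [h1]; norm_num)
      · exact H4.Burnside.isSolvable_of_card_eq 2 7 (by norm_num) (by norm_num) _ _ h1 ⟨0, 1, by norm_num⟩
    · exfalso
      apply hCns
      rw [h.2] at hCdvd
      refine H60.Ord60.solvable_of_dvd (hCdvd.trans (by decide)) ?_
      intro h2
      rw [h2] at hCdvd
      revert hCdvd; decide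
    · exfalso
      apply hCns
      rw [h.2] at hCdvd
      have h2 : Nat.card (centralizer (P : Set Q)) ∣ 2 ^ 2 * 3 ^ 2 := by simpa using hCdvd
      obtain ⟨a, b, ha, hb, hab⟩ := (Nat.dvd_mul).1 h2
      obtain ⟨i, -, rfl⟩ := (Nat.dvd_prime_pow Nat.prime_two).1 ha
      obtain ⟨j, -, rfl⟩ := (Nat.dvd_prime_pow Nat.prime_three).1 hb
      exact H98.DicksonSolv.solvable_of_card i j hab.symm
    · exact ⟨h.1, h.2.1⟩
  obtain ⟨rfl, hct⟩ := hcyc3
  -- the action on the five fixed points
  have hPz : ∀ z ∈ P, ∃ k : ℤ, z = (y : Q) ^ k := by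
    intro z hz
    have h1 : zpowers y = ⊤ := eq_top_of_card_eq _ (by rw [Nat.card_zpowers, hy, hPcard])
    have h2 : (⟨z, hz⟩ : P) ∈ zpowers y := by rw [h1]; exact mem_top _
    obtain ⟨k, hk⟩ := h2
    exact ⟨k, (congrArg Subtype.val hk).symm⟩
  have hfix1 : ∀ q : Q, ∀ i : Fin 8, f y i = i → f y (f q i) = f q i := by
    intro q i hi
    have h1 : q⁻¹ * y * q ∈ P := by
      have := hPn.conj_mem y y.2 q⁻¹
      rwa [inv_inv] at this
    obtain ⟨k, hk⟩ := hPz _ h1
    have h2 : (y : Q) * q = q * (y : Q) ^ k := by rw [← hk]; group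
    have h3 : f y * f q = f q * (f y) ^ k := by rw [← map_zpow, ← map_mul, ← map_mul, h2]
    have h4 := congrArg (fun g : P8 => g i) h3
    simp only [Equiv.Perm.mul_apply] at h4
    rw [h4, Equiv.Perm.zpow_apply_eq_self_of_apply_eq_self hi k]
  have hfix : ∀ q : Q, ∀ i : Fin 8, f y (f q i) = f q i ↔ f y i = i := by
    intro q i
    constructor
    · intro h1
      have h2 := hfix1 q⁻¹ _ h1
      have h3 : f q⁻¹ (f q i) = i := by
        rw [map_inv]; exact (f q).symm_apply_apply i
      rw [h3] at h2
      exact h2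
    · exact hfix1 q i
  let F := {i : Fin 8 // f y i = i}
  let ρ : Q →* Equiv.Perm F :=
    { toFun := fun q => (f q).subtypePerm (fun i => hfix q i)
      map_one' := by
        ext i
        simp
      map_mul' := by
        intro a b
        ext i
        simp }
  have hρ : ∀ (q : Q) (i : F), ((ρ q i : F) : Fin 8) = f q i := fun q i => rfl
  have hF : Fintype.card F = 5 := by
    have h1 := Equiv.Perm.card_fixedPoints (f y)
    rw [hct, Multiset.sum_singleton, Fintype.card_fin] at h1
    rw [show (5 : ℕ) = 8 - 3 from rfl, ← h1]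
    exact Fintype.card_congr (Equiv.refl _)
  have hkerP : ρ.ker = P := by
    apply le_antisymm
    · rw [hPd]
      apply H1.Cores.le_pCore inferInstance
      rintro ⟨q, hq⟩
      refine ⟨1, Subtype.ext ?_⟩
      change q ^ (3 ^ 1) = 1
      rw [pow_one]
      apply hf
      rw [map_pow, map_one]
      apply H61.A8Five.cube_one
      · exact Equiv.Perm.mem_alternatingGroup.1 (hA ⟨q, rfl⟩)
      · have h1 : (f q).support ⊆ (f y).support := by
          intro i hi
          rw [Equiv.Perm.mem_support] at hi ⊢
          intro h2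
          apply hi
          have h3 := hρ q ⟨i, h2⟩
          rw [MonoidHom.mem_ker.1 hq] at h3
          exact h3.symm
        have h2 := Finset.card_le_card h1
        rw [← Equiv.Perm.sum_cycleType (f y), hct, Multiset.sum_singleton] at h2
        exact h2
    · intro z hz
      obtain ⟨k, rfl⟩ := hPz z hz
      rw [MonoidHom.mem_ker]
      ext i
      rw [hρ, map_zpow, Equiv.Perm.zpow_apply_eq_self_of_apply_eq_self i.2 k]
      rfl
  have e1 : Q ⧸ P ≃* ρ.range :=
    (QuotientGroup.quotientMulEquivOfEq hkerP.symm).trans (QuotientGroup.quotientKerEquivRange ρ)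
  have hKns : ¬ Group.IsSolvable ρ.range := by
    intro hs
    apply hns
    apply solvable_of_quot P
    · have := hPp.isNilpotent
      infer_instance
    · haveI := hs
      exact Group.isSolvable_of_isSolvable_injective (f := e1.toMonoidHom) e1.injective
  have hPerm : Nat.card (Equiv.Perm F) = 120 := by
    rw [Nat.card_eq_fintype_card, Fintype.card_perm, hF]; rfl
  have hKd : Nat.card ρ.range ∣ 120 := by rw [← hPerm]; exact card_subgroup_dvd_card _
  have hK : Nat.card ρ.range = 60 ∨ Nat.card ρ.range = 120 := by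
    by_contra hcon
    push Not at hcon
    apply hKns
    by_cases h60 : Nat.card ρ.range ∣ 60
    · exact H60.Ord60.solvable_of_dvd h60 hcon.1
    have h1 : Nat.card ρ.range ≤ 120 := Nat.le_of_dvd (by norm_num) hKd
    have h2 : Nat.card ρ.range = 8 ∨ Nat.card ρ.range = 24 ∨ Nat.card ρ.range = 40 := by
      have h3 : Nat.card ρ.range ∈ Nat.divisors 120 := Nat.mem_divisors.2 ⟨hKd, by norm_num⟩
      have h4 : ∀ m ∈ Nat.divisors 120, ¬ m ∣ 60 → m ≠ 120 → m = 8 ∨ m = 24 ∨ m = 40 := by
        decide +kernel
      exact h4 _ h3 h60 hcon.2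
    rcases h2 with h2 | h2 | h2
    · exact H98.DicksonSolv.solvable_of_card 3 0 (by rw [h2]; norm_num)
    · exact H98.DicksonSolv.solvable_of_card 3 1 (by rw [h2]; norm_num)
    · exact H4.Burnside.isSolvable_of_card_eq 2 5 (by norm_num) (by norm_num) _ _ h2 ⟨3, 1, by norm_num⟩
  refine ⟨by rw [← hPd]; exact hPcard, ?_⟩
  have e0 : Q ⧸ pCore 3 Q ≃* Q ⧸ P := QuotientGroup.quotientMulEquivOfEq hPd.symm
  rcases hK with h1 | h1
  · left
    haveI := H60.Ord60.isSimple_of_not_solvable h1 hKns
    obtain ⟨e2⟩ := H60.Ord60.iso_alt5 h1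
    exact ⟨(e0.trans e1).trans e2⟩
  · right
    have h2 : ρ.range = ⊤ := eq_top_of_card_eq _ (by rw [h1, hPerm])
    let e3 : F ≃ Fin 5 := Fintype.equivFinOfCardEq hF
    exact ⟨(((e0.trans e1).trans (MulEquiv.subgroupCongr h2)).trans Subgroup.topEquiv).trans
      (Equiv.permCongrHom e3)⟩

end H57.Td
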