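import Mathlib

/-! `S₆` acting faithfully on an elementary abelian group of order at most 16. -/

set_option autoImplicit false

namespace H57.Td

open Subgroup

abbrev P6 := Equiv.Perm (Fin 6)

section Fx
variable {V : Type*} [Group V]

/-- fixed points of an automorphism -/
def Fx (α : MulAut V) : Subgroup V where
  carrier := {x | α x = x}
  one_mem' := map_one α
  mul_mem' := by
    intro a b ha hb
    change α (a * b) = a * b
    rw [map_mul, ha, hb]
  inv_mem' := by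
    intro a ha
    change α a⁻¹ = a⁻¹
    rw [map_inv, ha]

theorem mem_Fx {α : MulAut V} {x : V} : x ∈ Fx α ↔ α x = x := Iff.rfl

theorem Fx_eq_top {α : MulAut V} : Fx α = ⊤ ↔ α = 1 := by
  constructor
  · intro h
    ext x
    have : x ∈ Fx α := by rw [h]; exact mem_top _
    exact this
  · rintro rfl
    rw [eq_top_iff]
    intro x _
    rfl

theorem Fx_conj (α β : MulAut V) : Nat.card (Fx (β * α * β⁻¹)) = Nat.card (Fx α) := by
  have : Fx (β * α * β⁻¹) = (Fx α).map β.toMonoidHom := by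
    ext x
    constructor
    · intro hx
      have hx' : β (α (β⁻¹ x)) = x := hx
      refine ⟨β⁻¹ x, ?_, MulAut.apply_inv_self V β x⟩
      change α (β⁻¹ x) = β⁻¹ x
      apply β.injective
      rw [hx']; exact (MulAut.apply_inv_self V β x).symm
    · rintro ⟨y, hy, rfl⟩
      change β (α (β⁻¹ (β y))) = β y
      have h1 : β⁻¹ (β y) = y := MulAut.inv_apply_self V β y
      have h2 : α y = y := hy
      rw [h1, h2]
  rw [this, card_map_of_injective β.injective]

theorem Fx_modEq [Finite V] {p : ℕ} [Fact p.Prime] {α : MulAut V} (h : α ^ p = 1) :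
    Nat.card V ≡ Nat.card (Fx α) [MOD p] := by
  have hp : IsPGroup p (zpowers α) := by
    rintro ⟨x, k, rfl⟩
    refine ⟨1, Subtype.ext ?_⟩
    change (α ^ k) ^ (p ^ 1) = 1
    rw [pow_one, ← zpow_natCast, ← zpow_mul, mul_comm, zpow_mul, zpow_natCast, h, one_zpow]
  have h1 := hp.card_modEq_card_fixedPoints V
  have h2 : (MulAction.fixedPoints (zpowers α) V : Set V) = Fx α := by
    ext x
    constructor
    · intro hx
      exact hx ⟨α, mem_zpowers α⟩
    · intro hx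
      have hx' : α x = x := hx
      rintro ⟨_, k, rfl⟩
      change (α ^ k) x = x
      have h3 : α ∈ MulAction.stabilizer (MulAut V) x := hx'
      exact zpow_mem h3 k
  have h3 : Nat.card (MulAction.fixedPoints (zpowers α) V) = Nat.card (Fx α) := by rw [h2]; rfl
  rwa [h3] at h1

theorem Fx_card [Finite V] (hc : ∀ a b : V, a * b = b * a) (h2 : ∀ a : V, a * a = 1)
    (h16 : Nat.card V = 16) {α : MulAut V} (hα : α * α = 1) (hne : α ≠ 1) :
    Nat.card (Fx α) = 4 ∨ Nat.card (Fx α) = 8 := by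
  let δ : V →* V :=
    { toFun := fun x => x * α x
      map_one' := by simp
      map_mul' := by
        intro x y
        rw [map_mul]
        calc x * y * (α x * α y) = x * (y * α x) * α y := by group
          _ = x * (α x * y) * α y := by rw [hc y]
          _ = x * α x * (y * α y) := by group }
  have hαα : ∀ x, α (α x) = x := fun x => congrArg (fun β : MulAut V => β x) hα
  have hk : δ.ker = Fx α := by
    ext x
    rw [MonoidHom.mem_ker, mem_Fx]
    change x * α x = 1 ↔ _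
    constructor
    · intro h
      have h3 : x * α x = x * x := by rw [h, h2]
      exact mul_left_cancel h3
    · intro h; rw [h, h2]
  have hr : δ.range ≤ Fx α := by
    rintro _ ⟨x, rfl⟩
    change α (x * α x) = x * α x
    rw [map_mul, hαα, hc]
  have h3 := δ.ker.card_mul_index
  rw [index_ker, hk, h16] at h3
  have h4 : Nat.card δ.range ≤ Nat.card (Fx α) := card_le_of_le hr
  have h5 : Nat.card (Fx α) ≠ 16 := by
    intro h6
    exact hne (Fx_eq_top.1 (eq_top_of_card_eq _ (by rw [h6, h16])))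
  have h6 : Nat.card (Fx α) ∣ 16 := Dvd.intro _ h3
  have h7 : Nat.card (Fx α) ≤ 16 := Nat.le_of_dvd (by norm_num) h6
  generalize Nat.card (Fx α) = c at *
  generalize Nat.card δ.range = r at *
  have h8 : 16 ≤ c * c := by nlinarith
  have h9 : 4 ≤ c := by nlinarith
  interval_cases c
  · exact Or.inl rfl
  · exfalso; revert h6; decide
  · exfalso; revert h6; decide
  · exfalso; revert h6; decide
  · exact Or.inr rfl
  · exfalso; revert h6; decide
  · exfalso; revert h6; decide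
  · exfalso; revert h6; decide
  · exfalso; revert h6; decide
  · exfalso; revert h6; decide
  · exfalso; revert h6; decide
  · exfalso; revert h6; decide
  · exact absurd rfl h5

theorem Fx_five [Finite V] (hV : Nat.card V ∣ 16) {α : MulAut V} (h5 : α ^ 5 = 1) (hne : α ≠ 1) :
    Nat.card V = 16 ∧ Nat.card (Fx α) = 1 := by
  haveI : Fact (Nat.Prime 5) := ⟨by norm_num⟩
  have h1 := Fx_modEq h5
  have h2 : Nat.card (Fx α) ∣ Nat.card V := card_subgroup_dvd_card _
  have h3 : Nat.card (Fx α) ≠ Nat.card V := fun h => hne (Fx_eq_top.1 (eq_top_of_card_eq _ h))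
  have h4 : Nat.card V ∈ Nat.divisors 16 := Nat.mem_divisors.2 ⟨hV, by norm_num⟩
  have h5 : Nat.card (Fx α) ∈ Nat.divisors 16 := Nat.mem_divisors.2 ⟨h2.trans hV, by norm_num⟩
  have h6 : ∀ m ∈ Nat.divisors 16, ∀ c ∈ Nat.divisors 16, c ∣ m → c ≠ m → m ≡ c [MOD 5] →
      m = 16 ∧ c = 1 := by decide +kernel
  exact h6 _ h4 _ h5 h2 h3 h1

theorem two_tv [Finite V] (h16 : Nat.card V = 16) {α β : MulAut V} (hα : Nat.card (Fx α) = 8)
    (hβ : Nat.card (Fx β) = 8) : 4 ≤ Nat.card (Fx α ⊓ Fx β : Subgroup V) := by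
  have h1 : (Fx α).index = 2 := by
    have := (Fx α).card_mul_index; rw [hα, h16] at this; omega
  have h2 : (Fx β).index = 2 := by
    have := (Fx β).card_mul_index; rw [hβ, h16] at this; omega
  have h3 : (Fx α ⊓ Fx β).index ≤ 4 := by
    have := index_inf_le (H := Fx α) (K := Fx β)
    rw [h1, h2] at this; exact this
  have h4 := (Fx α ⊓ Fx β).card_mul_index
  rw [h16] at h4
  by_contra hcon
  push Not at hcon
  generalize Nat.card (Fx α ⊓ Fx β : Subgroup V) = c at *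
  generalize (Fx α ⊓ Fx β).index = r at *
  interval_cases c <;> omega

theorem inf_le_mul {α β : MulAut V} : Fx α ⊓ Fx β ≤ Fx (α * β) := by
  intro x hx
  have h1 : α x = x := (mem_inf.1 hx).1
  have h2 : β x = x := (mem_inf.1 hx).2
  change α (β x) = x
  rw [h2, h1]

end Fx

def s1 : P6 := Equiv.swap 0 1
def s2 : P6 := Equiv.swap 2 3
def s3 : P6 := Equiv.swap 4 5

abbrev T8 := Multiplicative (ZMod 2 × ZMod 2 × ZMod 2)

def fT (t : T8) : P6 :=
  (if t.toAdd.1 = 1 then s1 else 1) * (if t.toAdd.2.1 = 1 then s2 else 1) *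
    (if t.toAdd.2.2 = 1 then s3 else 1)

theorem fT_mul : ∀ a b : T8, fT (a * b) = fT a * fT b := by decide +kernel
theorem fT_ne : ∀ t : T8, t ≠ 1 → fT t ≠ 1 ∧ fT t * fT t = 1 := by decide +kernel
theorem fT_one : fT 1 = 1 := by decide +kernel
theorem sm : ∑ t : T8, (if t = 1 then 16 else 4) = 44 := by decide +kernel

def fTh : T8 →* P6 where
  toFun := fT
  map_one' := fT_one
  map_mul' := fT_mul

variable {V : Type*} [Group V] [Finite V]

/-- Burnside count: some involution of `S₆` is a transvection -/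
theorem exists_tv (hc : ∀ a b : V, a * b = b * a) (h2 : ∀ a : V, a * a = 1)
    (h16 : Nat.card V = 16) (φ : P6 →* MulAut V) (hφ : Function.Injective φ) :
    ∃ s : P6, s ≠ 1 ∧ s * s = 1 ∧ Nat.card (Fx (φ s)) = 8 := by
  by_contra hcon
  push Not at hcon
  have h4 : ∀ s : P6, s ≠ 1 → s * s = 1 → Nat.card (Fx (φ s)) = 4 := by
    intro s hs hss
    rcases Fx_card hc h2 h16 (α := φ s) (by rw [← map_mul, hss, map_one])
      (fun h => hs (hφ (by rw [h, map_one]))) with h | h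
    · exact h
    · exact absurd h (hcon s hs hss)
  classical
  letI : MulAction T8 V := MulAction.compHom V (φ.comp fTh)
  haveI : Fintype V := Fintype.ofFinite V
  have hfix : ∀ t : T8, Fintype.card (MulAction.fixedBy V t) = if t = 1 then 16 else 4 := by
    intro t
    rw [← Nat.card_eq_fintype_card]
    have h1 : (MulAction.fixedBy V t : Set V) = Fx (φ (fT t)) := by
      ext x; exact Iff.rfl
    have h3 : Nat.card (MulAction.fixedBy V t) = Nat.card (Fx (φ (fT t))) := by rw [h1]; rfl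
    rw [h3]
    by_cases ht : t = 1
    · rw [if_pos ht, ht, fT_one, map_one, Fx_eq_top.2 rfl, card_top, h16]
    · rw [if_neg ht]
      exact h4 _ (fT_ne t ht).1 (fT_ne t ht).2
  have hb := MulAction.sum_card_fixedBy_eq_card_orbits_mul_card_group T8 V
  rw [Finset.sum_congr rfl (fun t _ => hfix t), sm] at hb
  have h8 : Fintype.card T8 = 8 := by decide +kernel
  rw [h8] at hb
  omega

theorem tv_of_type (φ : P6 →* MulAut V) {s t : P6} (h : s.cycleType = t.cycleType) :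
    Nat.card (Fx (φ s)) = Nat.card (Fx (φ t)) := by
  obtain ⟨g, hg⟩ := isConj_iff.1 (Equiv.Perm.isConj_iff_cycleType_eq.2 h)
  rw [← hg, map_mul, map_mul, map_inv, Fx_conj]

def a5 : P6 := Equiv.swap 0 1 * Equiv.swap 2 3
def b5 : P6 := Equiv.swap 1 2 * Equiv.swap 3 4
def tt : Fin 3 → P6 := ![s1, s2, s3]
def gg : Fin 3 → P6 := ![c[2, 3, 4], c[0, 1, 4], c[0, 1, 2]]
def tt' : Fin 3 → P6 := ![Equiv.swap 0 1 * Equiv.swap 2 3 * Equiv.swap 4 5,
  Equiv.swap 0 2 * Equiv.swap 1 3 * Equiv.swap 4 5, Equiv.swap 0 3 * Equiv.swap 1 2 * Equiv.swap 4 5]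
def gg' : Fin 3 → P6 := ![c[0, 2, 4] * c[1, 3, 5], c[0, 1, 4] * c[2, 3, 5], c[0, 1, 4] * c[3, 2, 5]]

theorem tt_facts : (∀ i, tt i * tt i = 1) ∧ (∀ i j, tt i * tt j = tt j * tt i) ∧
    (∀ i, (tt i).cycleType = {2}) ∧ (∀ i j, i ≠ j → (tt i * tt j).cycleType = {2, 2}) ∧
    (∀ i, gg i ^ 3 = 1 ∧ gg i ≠ 1 ∧ gg i * tt i = tt i * gg i) := by
  refine ⟨?_, ?_, ?_, ?_, ?_⟩ <;> decide +kernel

theorem tt'_facts : (∀ i, tt' i * tt' i = 1) ∧ (∀ i j, tt' i * tt' j = tt' j * tt' i) ∧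
    (∀ i, (tt' i).cycleType = {2, 2, 2}) ∧ (∀ i j, i ≠ j → (tt' i * tt' j).cycleType = {2, 2}) ∧
    (∀ i, gg' i ^ 3 = 1 ∧ gg' i ≠ 1 ∧ gg' i * tt' i = tt' i * gg' i) := by
  refine ⟨?_, ?_, ?_, ?_, ?_⟩ <;> decide +kernel

theorem tt_inj : ∀ e e' : Fin 2 × Fin 2 × Fin 2,
    tt 0 ^ (e.1 : ℕ) * tt 1 ^ (e.2.1 : ℕ) * tt 2 ^ (e.2.2 : ℕ) =
      tt 0 ^ (e'.1 : ℕ) * tt 1 ^ (e'.2.1 : ℕ) * tt 2 ^ (e'.2.2 : ℕ) → e = e' := by decide +kernel

theorem tt'_inj : ∀ e e' : Fin 2 × Fin 2 × Fin 2,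
    tt' 0 ^ (e.1 : ℕ) * tt' 1 ^ (e.2.1 : ℕ) * tt' 2 ^ (e.2.2 : ℕ) =
      tt' 0 ^ (e'.1 : ℕ) * tt' 1 ^ (e'.2.1 : ℕ) * tt' 2 ^ (e'.2.2 : ℕ) → e = e' := by decide +kernel

theorem ab_facts : a5.cycleType = {2, 2} ∧ b5.cycleType = {2, 2} ∧ (a5 * b5) ^ 5 = 1 ∧
    a5 * b5 ≠ 1 ∧ a5 * a5 = 1 ∧ a5 ≠ 1 := by
  refine ⟨?_, ?_, ?_, ?_, ?_, ?_⟩ <;> decide +kernel

theorem exists_three (hc : ∀ a b : V, a * b = b * a) (h2 : ∀ a : V, a * a = 1)
    (hV : Nat.card V ∣ 16) (φ : P6 →* MulAut V) (hφ : Function.Injective φ) :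
    Nat.card V = 16 ∧ ∃ t g : Fin 3 → P6, (∀ i, t i * t i = 1) ∧ (∀ i j, t i * t j = t j * t i) ∧
      (∀ i, Nat.card (Fx (φ (t i))) = 8) ∧ (∀ i j, i ≠ j → Nat.card (Fx (φ (t i * t j))) = 4) ∧
      (∀ i, g i ^ 3 = 1 ∧ g i ≠ 1 ∧ g i * t i = t i * g i) ∧
      (∀ e e' : Fin 2 × Fin 2 × Fin 2,
        t 0 ^ (e.1 : ℕ) * t 1 ^ (e.2.1 : ℕ) * t 2 ^ (e.2.2 : ℕ) =
          t 0 ^ (e'.1 : ℕ) * t 1 ^ (e'.2.1 : ℕ) * t 2 ^ (e'.2.2 : ℕ) → e = e') := by
  obtain ⟨ha, hb, hab5, hab1, haa, ha1⟩ := ab_facts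
  have hinj : ∀ s : P6, s ≠ 1 → φ s ≠ 1 := fun s hs h => hs (hφ (by rw [h, map_one]))
  obtain ⟨h16, hF1⟩ := Fx_five hV (α := φ (a5 * b5)) (by rw [← map_pow, hab5, map_one])
    (hinj _ hab1)
  refine ⟨h16, ?_⟩
  -- doubles are not transvections
  have hd : ∀ s : P6, s.cycleType = {2, 2} → Nat.card (Fx (φ s)) = 4 := by
    intro s hs
    have h3 : Nat.card (Fx (φ s)) = Nat.card (Fx (φ a5)) := tv_of_type φ (by rw [hs, ha])
    rw [h3]
    rcases Fx_card hc h2 h16 (α := φ a5) (by rw [← map_mul, haa, map_one]) (hinj _ ha1) with h | h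
    · exact h
    · exfalso
      have h4 : Nat.card (Fx (φ b5)) = 8 := by rw [← h]; exact tv_of_type φ (by rw [ha, hb])
      have h5 := two_tv h16 h h4
      have h6 := card_le_of_le (inf_le_mul (α := φ a5) (β := φ b5))
      rw [← map_mul, hF1] at h6
      omega
  obtain ⟨s, hs1, hss, hs8⟩ := exists_tv hc h2 h16 φ hφ
  haveI : Fact (Nat.Prime 2) := ⟨Nat.prime_two⟩
  have hct := Equiv.Perm.cycleType_of_pow_prime_eq_one (p := 2) (σ := s) (by rw [pow_two, hss])
  have hle := Equiv.Perm.sum_cycleType_le s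
  rw [hct, Multiset.sum_replicate, smul_eq_mul, Fintype.card_fin] at hle
  have h0 : s.cycleType.card ≠ 0 := by
    intro h
    rw [Multiset.card_eq_zero, Equiv.Perm.cycleType_eq_zero] at h
    exact hs1 h
  have hcases : s.cycleType.card = 1 ∨ s.cycleType.card = 2 ∨ s.cycleType.card = 3 := by omega
  rcases hcases with h | h | h
  · rw [h] at hct
    obtain ⟨h3, h4, h5, h6, h7⟩ := tt_facts
    refine ⟨tt, gg, h3, h4, ?_, ?_, h7, tt_inj⟩
    · intro i
      rw [← hs8]; exact tv_of_type φ (by rw [h5 i, hct]; rfl)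
    · intro i j hij
      rw [hd _ (h6 i j hij)]
  · exfalso
    rw [h] at hct
    have h3 := hd s (by rw [hct]; rfl)
    omega
  · rw [h] at hct
    obtain ⟨h3, h4, h5, h6, h7⟩ := tt'_facts
    refine ⟨tt', gg', h3, h4, ?_, ?_, h7, tt'_inj⟩
    · intro i
      rw [← hs8]; exact tv_of_type φ (by rw [h5 i, hct]; rfl)
    · intro i j hij
      rw [hd _ (h6 i j hij)]

end H57.Td
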