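import Mathlib

/-! `S₆` embeds in `S₇` and `A₈`. -/

set_option autoImplicit false

namespace H57.Td

/-- the isomorphism between the two groups of order two -/
def chi : ℤˣ →* Equiv.Perm (Fin 2) where
  toFun u := if u = 1 then 1 else Equiv.swap 0 1
  map_one' := if_pos rfl
  map_mul' := by decide

theorem sign_chi : ∀ u : ℤˣ, Equiv.Perm.sign (chi u) = u := by decide

theorem exists_six_eight : ∃ f : Equiv.Perm (Fin 6) →* ↥(alternatingGroup (Fin 8)),
    Function.Injective f := by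
  let g : Equiv.Perm (Fin 6) →* Equiv.Perm (Fin 8) :=
    (Equiv.permCongrHom (finSumFinEquiv : Fin 6 ⊕ Fin 2 ≃ Fin 8)).toMonoidHom.comp
      ((Equiv.Perm.sumCongrHom (Fin 6) (Fin 2)).comp
        ((MonoidHom.id (Equiv.Perm (Fin 6))).prod (chi.comp Equiv.Perm.sign)))
  have hg : ∀ σ, g σ ∈ alternatingGroup (Fin 8) := by
    intro σ
    rw [Equiv.Perm.mem_alternatingGroup]
    change Equiv.Perm.sign ((finSumFinEquiv : Fin 6 ⊕ Fin 2 ≃ Fin 8).permCongr
      (Equiv.Perm.sumCongr σ (chi (Equiv.Perm.sign σ)))) = 1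
    rw [Equiv.Perm.sign_permCongr, Equiv.Perm.sign_sumCongr, sign_chi]
    exact Int.units_mul_self _
  refine ⟨g.codRestrict _ hg, ?_⟩
  intro a b h
  have h1 : g a = g b := congrArg Subtype.val h
  have h2 := (Equiv.permCongrHom (finSumFinEquiv : Fin 6 ⊕ Fin 2 ≃ Fin 8)).injective h1
  have h3 := Equiv.Perm.sumCongrHom_injective h2
  exact congrArg Prod.fst h3

theorem exists_six_seven : ∃ f : Equiv.Perm (Fin 6) →* Equiv.Perm (Fin 7),
    Function.Injective f := by
  let g : Equiv.Perm (Fin 6) →* Equiv.Perm (Fin 7) :=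
    (Equiv.permCongrHom (finSumFinEquiv : Fin 6 ⊕ Fin 1 ≃ Fin 7)).toMonoidHom.comp
      ((Equiv.Perm.sumCongrHom (Fin 6) (Fin 1)).comp
        ((MonoidHom.id (Equiv.Perm (Fin 6))).prod 1))
  refine ⟨g, ?_⟩
  intro a b h1
  have h2 := (Equiv.permCongrHom (finSumFinEquiv : Fin 6 ⊕ Fin 1 ≃ Fin 7)).injective h1
  have h3 := Equiv.Perm.sumCongrHom_injective h2
  exact congrArg Prod.fst h3

end H57.Td
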